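import Cfsg.Agent.Lib.CubicE6.Stage2

/-!
Diagonal isometries of the cubic form are products of root elements.
-/

set_option autoImplicit false
set_option linter.unusedSectionVars false
set_option linter.unusedVariables false

namespace Cfsg.Agent.Lib.CubicE6.Diag

open Cfsg.Lie Matrix Cfsg.Agent.Lib.CubicE6.Tab Cfsg.Agent.Lib.CubicE6.Form Cfsg.Agent.Lib.CubicE6.Root
open Cfsg.Agent.Lib.CubicE6.Pres Cfsg.Agent.Lib.CubicE6.Stage Cfsg.Agent.Lib.CubicE6.Stage2
open scoped MatrixGroups

variable {F : Type*} [Field F]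

/-- The entries of a root with a given source. -/
def Nsrc (r n : ℕ) : List (ℕ × ℕ × ℤ) := (Nt r).filter fun x => x.2.1 = n

theorem sumTg_e (L : List (ℕ × ℕ × ℤ)) (hL : ∀ x ∈ L, x.2.1 < 27) (m n : ℕ) :
    sumTg L m (e n : I27 → F) = ((L.filter fun x => x.2.1 = n).map fun x => if x.1 = m then (x.2.2 : F) else 0).sum := by
  induction L with
  | nil => simp [sumTg]
  | cons x L ih =>
    have h1 := hL x List.mem_cons_self
    have ih' := ih (fun y hy => hL y (List.mem_cons_of_mem _ hy))
    have e1 : sumTg (x :: L) m (e n : I27 → F) = (if x.1 = m then (x.2.2 : F) * (e n : I27 → F) (dc x.2.1) else 0) + sumTg L m (e n) := by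
      simp [sumTg]
    rw [e1, ih', e_dc h1]
    by_cases c : x.2.1 = n <;> simp [List.filter_cons, c]

theorem act_X_nil {r n : ℕ} (h : Nsrc r n = []) (t : F) : act (X r t) (e n) = e n := by
  funext u
  rw [act_X_apply, sumTg_e _ (fun x hx => (bound_Nt r x hx).2)]
  have : (Nt r).filter (fun x => x.2.1 = n) = [] := h
  rw [this]
  simp

theorem act_X_single {r n q : ℕ} {ε : ℤ} (h : Nsrc r n = [(q, n, ε)]) (t : F) :
    act (X r t) (e n) = e n + (t * (ε : F)) • e q := by
  funext u
  rw [act_X_apply, sumTg_e _ (fun x hx => (bound_Nt r x hx).2)]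
  have : (Nt r).filter (fun x => x.2.1 = n) = [(q, n, ε)] := h
  rw [this]
  simp only [List.map_cons, List.map_nil, List.sum_cons, List.sum_nil, add_zero, Pi.add_apply, Pi.smul_apply, smul_eq_mul, e]
  by_cases c : cd u = q
  · simp [c]
  · simp [c, Ne.symm c]

/-- The element `h_r(c)`. -/
def tau (r r' : ℕ) (c : F) : GL I27 F := X r c * X r' (-c⁻¹) * X r c * X r (-1) * X r' 1 * X r (-1)

theorem tau_mem {r r' : ℕ} (hr : r < 72) (hr' : r' < 72) (c : F) : tau r r' c ∈ S F := by
  unfold tau
  exact mul_mem (mul_mem (mul_mem (mul_mem (mul_mem (X_mem_S hr _) (X_mem_S hr' _)) (X_mem_S hr _)) (X_mem_S hr _)) (X_mem_S hr' _))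
    (X_mem_S hr _)

theorem tau_xy {r r' : ℕ} {x y : I27 → F} {ε : F} (hε : ε * ε = 1)
    (hAx : ∀ t : F, act (X r t) x = x + (t * ε) • y) (hAy : ∀ t : F, act (X r t) y = y)
    (hBy : ∀ t : F, act (X r' t) y = y + (t * ε) • x) (hBx : ∀ t : F, act (X r' t) x = x) {c : F} (hc : c ≠ 0) :
    act (tau r r' c) x = c⁻¹ • x ∧ act (tau r r' c) y = c • y := by
  have A : ∀ (t a b : F), act (X r t) (a • x + b • y) = a • x + (a * t * ε + b) • y := by
    intro t a b
    rw [act_add, act_smul, act_smul, hAx, hAy]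
    module
  have B : ∀ (t a b : F), act (X r' t) (a • x + b • y) = (a + b * t * ε) • x + b • y := by
    intro t a b
    rw [act_add, act_smul, act_smul, hBx, hBy]
    module
  have hx : x = (1 : F) • x + (0 : F) • y := by simp
  have hy : y = (0 : F) • x + (1 : F) • y := by simp
  have hε' : ε = 1 ∨ ε = -1 := mul_self_eq_one_iff.mp hε
  constructor
  · have e0 : act (tau r r' c) x = act (tau r r' c) ((1 : F) • x + (0 : F) • y) := by rw [← hx]
    rw [e0]
    simp only [tau, act_mul, A, B]
    have e1 : c⁻¹ • x = c⁻¹ • x + (0 : F) • y := by simp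
    rw [e1]
    congr 2
    · rcases hε' with rfl | rfl <;> field_simp <;> ring
    · rcases hε' with rfl | rfl <;> field_simp <;> ring
  · have e0 : act (tau r r' c) y = act (tau r r' c) ((0 : F) • x + (1 : F) • y) := by rw [← hy]
    rw [e0]
    simp only [tau, act_mul, A, B]
    have e1 : c • y = (0 : F) • x + c • y := by simp
    rw [e1]
    congr 2
    · rcases hε' with rfl | rfl <;> field_simp <;> ring
    · rcases hε' with rfl | rfl <;> field_simp <;> ring

/-- `n` is a source of `r`. -/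
def tauA (r r' n : ℕ) : Bool :=
  match Nsrc r n with
  | [x] => x.2.1 == n && (Nsrc r x.1).isEmpty && Nsrc r' x.1 == [(n, x.1, x.2.2)] && (Nsrc r' n).isEmpty && x.2.2 * x.2.2 == 1
  | _ => false

/-- `n` is a target of `r`. -/
def tauB (r r' n : ℕ) : Bool :=
  match Nsrc r' n with
  | [x] => x.2.1 == n && (Nsrc r' x.1).isEmpty && Nsrc r x.1 == [(n, x.1, x.2.2)] && (Nsrc r n).isEmpty && x.2.2 * x.2.2 == 1
  | _ => false

/-- `n` is neither a source nor a target. -/
def tauC (r r' n : ℕ) : Bool := (Nsrc r n).isEmpty && (Nsrc r' n).isEmpty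

theorem cast_sq {c : ℤ} (h : c * c = 1) : (c : F) * (c : F) = 1 := by
  have : ((c * c : ℤ) : F) = 1 := by rw [h]; simp
  simpa using this

theorem tauC_act {r r' n : ℕ} (h : tauC r r' n = true) (c : F) : act (tau r r' c) (e n) = e n := by
  simp only [tauC, Bool.and_eq_true, List.isEmpty_iff] at h
  simp only [tau, act_mul, act_X_nil h.1, act_X_nil h.2]

theorem tauA_act {r r' n : ℕ} (h : tauA r r' n = true) {c : F} (hc : c ≠ 0) : act (tau r r' c) (e n) = c⁻¹ • e n := by
  unfold tauA at h
  split at h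
  · rename_i x hx
    simp only [Bool.and_eq_true, beq_iff_eq, List.isEmpty_iff] at h
    obtain ⟨⟨⟨⟨h1, h2⟩, h3⟩, h4⟩, h5⟩ := h
    have hx' : Nsrc r n = [(x.1, n, x.2.2)] := by
      rw [hx, ← h1]
    exact (tau_xy (cast_sq h5) (act_X_single hx') (act_X_nil h2) (act_X_single h3) (act_X_nil h4) hc).1
  · simp at h

theorem tauB_act {r r' n : ℕ} (h : tauB r r' n = true) {c : F} (hc : c ≠ 0) : act (tau r r' c) (e n) = c • e n := by
  unfold tauB at h
  split at h
  · rename_i x hx
    simp only [Bool.and_eq_true, beq_iff_eq, List.isEmpty_iff] at h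
    obtain ⟨⟨⟨⟨h1, h2⟩, h3⟩, h4⟩, h5⟩ := h
    have hx' : Nsrc r' n = [(x.1, n, x.2.2)] := by
      rw [hx, ← h1]
    exact (tau_xy (cast_sq h5) (act_X_single h3) (act_X_nil h4) (act_X_single hx') (act_X_nil h2) hc).2
  · simp at h

/-- All coordinate vectors are eigenvectors. -/
def DiagI (g : GL I27 F) : Prop := ∀ n, n < 27 → ∃ d : F, d ≠ 0 ∧ act g (e n) = d • e n

/-- The torus data for the reduction, in reverse order. -/
def validB : List (ℕ × ℕ × ℕ) → Bool
  | [] => true
  | (b, r, r') :: L => decide (r < 72) && decide (r' < 72) && decide (b < 27) && tauB r r' b &&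
      (List.range 27).all (fun n => tauA r r' n || tauB r r' n || tauC r r' n) &&
      L.all (fun y => tauC r r' y.1) && validB L

theorem valid_bs : validB bs.reverse = true := by decide +kernel

theorem tau_diag {r r' : ℕ} (h : (List.range 27).all (fun n => tauA r r' n || tauB r r' n || tauC r r' n) = true) {c : F} (hc : c ≠ 0)
    {g : GL I27 F} (hg : DiagI g) : DiagI (tau r r' c * g) := by
  intro n hn
  obtain ⟨d, hd, h1⟩ := hg n hn
  have h2 := List.all_eq_true.mp h n (List.mem_range.mpr hn)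
  simp only [Bool.or_eq_true] at h2
  rw [act_mul, h1, act_smul]
  rcases h2 with (h3 | h3) | h3
  · rw [tauA_act h3 hc, smul_smul]
    exact ⟨_, mul_ne_zero hd (inv_ne_zero hc), rfl⟩
  · rw [tauB_act h3 hc, smul_smul]
    exact ⟨_, mul_ne_zero hd hc, rfl⟩
  · rw [tauC_act h3]
    exact ⟨_, hd, rfl⟩

theorem torus_step (L : List (ℕ × ℕ × ℕ)) (hL : validB L = true) {g : GL I27 F} (hg : DiagI g) :
    ∃ x ∈ S F, DiagI (x * g) ∧ ∀ y ∈ L, act (x * g) (e y.1) = e y.1 := by
  induction L with
  | nil => exact ⟨1, Subgroup.one_mem _, by rwa [one_mul], by simp⟩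
  | cons y L ih =>
    obtain ⟨b, r, r'⟩ := y
    simp only [validB, Bool.and_eq_true, decide_eq_true_eq, List.all_eq_true] at hL
    obtain ⟨⟨⟨⟨⟨⟨h1, h2⟩, h3⟩, h4⟩, h5⟩, h6⟩, h7⟩ := hL
    obtain ⟨x, hx, hd, hf⟩ := ih h7
    obtain ⟨d, hd0, hdb⟩ := hd b h3
    have hall : (List.range 27).all (fun n => tauA r r' n || tauB r r' n || tauC r r' n) = true := by
      rw [List.all_eq_true]
      exact h5
    refine ⟨tau r r' d⁻¹ * x, mul_mem (tau_mem h1 h2 _) hx, ?_, ?_⟩
    · rw [mul_assoc]
      exact tau_diag hall (inv_ne_zero hd0) hd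
    · intro y hy
      rw [mul_assoc, act_mul]
      rcases List.mem_cons.mp hy with rfl | hy'
      · show act (tau r r' d⁻¹) (act (x * g) (e b)) = e b
        rw [hdb, act_smul, tauB_act h4 (inv_ne_zero hd0), smul_smul, mul_inv_cancel₀ hd0, one_smul]
      · rw [hf y hy', tauC_act (h6 y hy')]

/-- The derivation of the remaining lines. -/
def derOK : List ℕ → List (ℕ × ℕ × ℕ) → Bool
  | _, [] => true
  | D, (o, a, b) :: L => D.contains a && D.contains b && isThird a b o && decide (o < 27) && decide (b < 27) && derOK (o :: D) L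

theorem der_ok : derOK (bs.reverse.map Prod.fst) der = true := by decide +kernel

theorem der_all : ∀ n : Fin 27, n.val ∈ der.map Prod.fst ++ bs.reverse.map Prod.fst := by decide +kernel

section Main

variable (hF : ∃ c : F, c ≠ 0 ∧ c ≠ 1)

include hF

theorem der_step {g : GL I27 F} (hg : g ∈ E6univ F) (hd : DiagI g) (L : List (ℕ × ℕ × ℕ)) (D : List ℕ) (hL : derOK D L = true)
    (hD : ∀ a ∈ D, act g (e a) = e a) : ∀ a ∈ L.map Prod.fst ++ D, act g (e a) = e a := by
  induction L generalizing D with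
  | nil => simpa using hD
  | cons y L ih =>
    obtain ⟨o, a, b⟩ := y
    simp only [derOK, Bool.and_eq_true, List.contains_iff_mem, decide_eq_true_eq] at hL
    obtain ⟨⟨⟨⟨⟨h1, h2⟩, h3⟩, h4⟩, h5⟩, h6⟩ := hL
    have hoo : act g (e o) = e o := by
      obtain ⟨d, hd0, hdo⟩ := hd o h4
      have e1 : act g (e a) = (1 : F) • e a := by rw [hD a h1, one_smul]
      have e2 : act g (e b) = (1 : F) • e b := by rw [hD b h2, one_smul]
      have h7 := supp2 (z := o) hF hg one_ne_zero one_ne_zero e1 e2 h5 h4 h3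
      rw [if_pos rfl, hdo, Pi.smul_apply, e_dc h4, if_pos rfl, smul_eq_mul, one_mul, one_mul, mul_one] at h7
      rw [hdo, h7, one_smul]
    have := ih (o :: D) h6 (fun x hx => by
      rcases List.mem_cons.mp hx with rfl | hx'
      · exact hoo
      · exact hD x hx')
    intro x hx
    apply this x
    simp only [List.map_cons, List.mem_append, List.mem_cons] at hx ⊢
    tauto

/-- Every isometry of the cubic form is a product of root elements. -/
theorem mem_S {g : GL I27 F} (hg : g ∈ E6univ F) : g ∈ S F := by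
  obtain ⟨x, hx, hd⟩ := reduce hF hg
  obtain ⟨y, hy, hd', hf⟩ := torus_step bs.reverse valid_bs hd
  have hg' : y * (x * g) ∈ E6univ F := mul_mem (S_le hy) (mul_mem (S_le hx) hg)
  have hall := der_step hF hg' hd' der (bs.reverse.map Prod.fst) der_ok (fun a ha => by
    obtain ⟨z, hz, rfl⟩ := List.mem_map.mp ha
    exact hf z hz)
  have h1 : y * (x * g) = 1 := by
    apply Units.ext
    ext u w
    have h2 := hall (cd w) (der_all ⟨cd w, cd_lt w⟩)
    rw [e_cd] at h2
    have h3 := congrFun h2 u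
    simp only [act, Matrix.mulVec_single_one] at h3
    rw [Units.val_one]
    simpa [Matrix.one_apply, Pi.single_apply] using h3
  have h2 : g = (y * x)⁻¹ := eq_inv_of_mul_eq_one_right (by rw [mul_assoc]; exact h1)
  rw [h2]
  exact inv_mem (mul_mem hy hx)

end Main

end Cfsg.Agent.Lib.CubicE6.Diag
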