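import Cfsg.Prelude.Def_E6
import Cfsg.Agent.Lib.CubicE6.Tab

/-!
The cubic form of `Def_E6` as a sum over its 45 monomials, and its polar forms.
-/

set_option autoImplicit false
set_option linter.unusedSectionVars false
set_option linter.unusedVariables false

namespace Cfsg.Agent.Lib.CubicE6.Form

open Cfsg.Lie Matrix Cfsg.Agent.Lib.CubicE6.Tab
open scoped MatrixGroups

/-- The code of a coordinate. -/
def cd (u : I27) : ℕ := 9 * u.1.val + 3 * u.2.1.val + u.2.2.val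

/-- The coordinate with a given code. -/
def dc (n : ℕ) : I27 := (Fin.ofNat 3 (n / 9), Fin.ofNat 3 (n / 3), Fin.ofNat 3 n)

theorem dc_cd : ∀ u : I27, dc (cd u) = u := by decide

theorem cd_dc_aux : ∀ n : Fin 27, cd (dc n.val) = n.val := by decide

theorem cd_dc {n : ℕ} (h : n < 27) : cd (dc n) = n := cd_dc_aux ⟨n, h⟩

theorem cd_lt : ∀ u : I27, cd u < 27 := by decide

theorem cd_inj {u w : I27} (h : cd u = cd w) : u = w := by
  rw [← dc_cd u, h, dc_cd]

variable {F : Type*} [Field F]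

/-- The coordinate vector. -/
def e (n : ℕ) : I27 → F := fun u => if cd u = n then 1 else 0

theorem e_dc {n m : ℕ} (h : m < 27) : (e n : I27 → F) (dc m) = if m = n then 1 else 0 := by
  simp [e, cd_dc h]

theorem e_cd (u : I27) : (e (cd u) : I27 → F) = Pi.single u 1 := by
  funext w
  by_cases h : w = u
  · subst h
    simp [e]
  · have : cd w ≠ cd u := fun h' => h (cd_inj h')
    simp [e, this, Pi.single_apply, h]

/-- Sum over a list of triangles of a function. -/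
def T3L (L : List (ℤ × ℕ × ℕ × ℕ)) (x : I27 → F) : F :=
  (L.map fun τ => (τ.1 : F) * (x (dc τ.2.1) * x (dc τ.2.2.1) * x (dc τ.2.2.2))).sum

/-- The linearisation. -/
def D3L (L : List (ℤ × ℕ × ℕ × ℕ)) (x y : I27 → F) : F :=
  (L.map fun τ => (τ.1 : F) * (x (dc τ.2.1) * x (dc τ.2.2.1) * y (dc τ.2.2.2) +
    x (dc τ.2.1) * y (dc τ.2.2.1) * x (dc τ.2.2.2) + y (dc τ.2.1) * x (dc τ.2.2.1) * x (dc τ.2.2.2))).sum

/-- The trilinear form. -/
def f3L (L : List (ℤ × ℕ × ℕ × ℕ)) (x y z : I27 → F) : F :=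
  (L.map fun τ => (τ.1 : F) * (x (dc τ.2.1) * y (dc τ.2.2.1) * z (dc τ.2.2.2) +
    y (dc τ.2.1) * x (dc τ.2.2.1) * z (dc τ.2.2.2) + x (dc τ.2.1) * z (dc τ.2.2.1) * y (dc τ.2.2.2) +
    y (dc τ.2.1) * z (dc τ.2.2.1) * x (dc τ.2.2.2) + z (dc τ.2.1) * x (dc τ.2.2.1) * y (dc τ.2.2.2) +
    z (dc τ.2.1) * y (dc τ.2.2.1) * x (dc τ.2.2.2))).sum

theorem T3L_add (L : List (ℤ × ℕ × ℕ × ℕ)) (x y : I27 → F) (t : F) :
    T3L L (x + t • y) = T3L L x + t * D3L L x y + t ^ 2 * D3L L y x + t ^ 3 * T3L L y := by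
  induction L with
  | nil => simp [T3L, D3L]
  | cons τ L ih =>
    simp only [T3L, D3L, List.map_cons, List.sum_cons] at ih ⊢
    rw [ih]
    simp only [Pi.add_apply, Pi.smul_apply, smul_eq_mul]
    ring

theorem f3L_eq (L : List (ℤ × ℕ × ℕ × ℕ)) (x y z : I27 → F) :
    f3L L x y z = D3L L (x + y) z - D3L L x z - D3L L y z := by
  induction L with
  | nil => simp [f3L, D3L]
  | cons τ L ih =>
    simp only [f3L, D3L, List.map_cons, List.sum_cons] at ih ⊢
    rw [ih]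
    simp only [Pi.add_apply]
    ring

theorem f3L_swap (L : List (ℤ × ℕ × ℕ × ℕ)) (x y z : I27 → F) : f3L L x y z = f3L L x z y := by
  induction L with
  | nil => simp [f3L]
  | cons τ L ih =>
    simp only [f3L, List.map_cons, List.sum_cons] at ih ⊢
    rw [ih]
    ring

theorem f3L_smul_left (L : List (ℤ × ℕ × ℕ × ℕ)) (c : F) (x y z : I27 → F) :
    f3L L (c • x) y z = c * f3L L x y z := by
  induction L with
  | nil => simp [f3L]
  | cons τ L ih =>
    simp only [f3L, List.map_cons, List.sum_cons] at ih ⊢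
    rw [ih]
    simp only [Pi.smul_apply, smul_eq_mul]
    ring

theorem f3L_swap12 (L : List (ℤ × ℕ × ℕ × ℕ)) (x y z : I27 → F) : f3L L x y z = f3L L y x z := by
  induction L with
  | nil => simp [f3L]
  | cons τ L ih =>
    simp only [f3L, List.map_cons, List.sum_cons] at ih ⊢
    rw [ih]
    ring

/-- The form. -/
abbrev T3 (x : I27 → F) : F := T3L triL x
/-- The linearisation of the form. -/
abbrev D3 (x y : I27 → F) : F := D3L triL x y
/-- The trilinear form. -/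
abbrev f3 (x y z : I27 → F) : F := f3L triL x y z

theorem T3_add (x y : I27 → F) (t : F) : T3 (x + t • y) = T3 x + t * D3 x y + t ^ 2 * D3 y x + t ^ 3 * T3 y :=
  T3L_add _ x y t

theorem f3_eq (x y z : I27 → F) : f3 x y z = D3 (x + y) z - D3 x z - D3 y z := f3L_eq _ x y z

theorem f3_swap (x y z : I27 → F) : f3 x y z = f3 x z y := f3L_swap _ x y z

theorem f3_swap12 (x y z : I27 → F) : f3 x y z = f3 y x z := f3L_swap12 _ x y z

theorem f3_smul_left (c : F) (x y z : I27 → F) : f3 (c • x) y z = c * f3 x y z := f3L_smul_left _ c x y z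

theorem dc_vals : dc 0 = (0, 0, 0) ∧ dc 1 = (0, 0, 1) ∧ dc 2 = (0, 0, 2) ∧ dc 3 = (0, 1, 0) ∧ dc 4 = (0, 1, 1) ∧
    dc 5 = (0, 1, 2) ∧ dc 6 = (0, 2, 0) ∧ dc 7 = (0, 2, 1) ∧ dc 8 = (0, 2, 2) ∧ dc 9 = (1, 0, 0) ∧ dc 10 = (1, 0, 1) ∧
    dc 11 = (1, 0, 2) ∧ dc 12 = (1, 1, 0) ∧ dc 13 = (1, 1, 1) ∧ dc 14 = (1, 1, 2) ∧ dc 15 = (1, 2, 0) ∧ dc 16 = (1, 2, 1) ∧
    dc 17 = (1, 2, 2) ∧ dc 18 = (2, 0, 0) ∧ dc 19 = (2, 0, 1) ∧ dc 20 = (2, 0, 2) ∧ dc 21 = (2, 1, 0) ∧ dc 22 = (2, 1, 1) ∧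
    dc 23 = (2, 1, 2) ∧ dc 24 = (2, 2, 0) ∧ dc 25 = (2, 2, 1) ∧ dc 26 = (2, 2, 2) :=
  ⟨by decide, by decide, by decide, by decide, by decide, by decide, by decide, by decide, by decide, by decide, by decide, by decide, by decide, by decide, by decide, by decide, by decide, by decide, by decide, by decide, by decide, by decide, by decide, by decide, by decide, by decide, by decide⟩

/-- The cubic form is the sum of its monomials. -/
theorem cubicT_eq (v : I27 → F) : cubicT v = T3 v := by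
  obtain ⟨h0, h1, h2, h3, h4, h5, h6, h7, h8, h9, h10, h11, h12, h13, h14, h15, h16, h17, h18, h19, h20, h21, h22, h23,
    h24, h25, h26⟩ := dc_vals
  simp only [T3, T3L, triL, List.map_cons, List.map_nil, List.sum_cons, List.sum_nil, h0, h1, h2, h3, h4, h5, h6, h7, h8,
    h9, h10, h11, h12, h13, h14, h15, h16, h17, h18, h19, h20, h21, h22, h23, h24, h25, h26]
  simp only [cubicT, mat3, Matrix.det_fin_three, Matrix.trace, Matrix.diag, Fin.sum_univ_three, Matrix.mul_apply,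
    Matrix.of_apply]
  push_cast
  ring


/-- The action on vectors. -/
abbrev act (g : GL I27 F) (v : I27 → F) : I27 → F := (g : Matrix I27 I27 F) *ᵥ v

theorem act_mul (g h : GL I27 F) (v : I27 → F) : act (g * h) v = act g (act h v) := by
  simp [act, Matrix.mulVec_mulVec]

theorem act_one (v : I27 → F) : act (1 : GL I27 F) v = v := by
  simp [act]

theorem act_inv_act (g : GL I27 F) (v : I27 → F) : act g⁻¹ (act g v) = v := by
  rw [← act_mul, inv_mul_cancel, act_one]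

theorem act_act_inv (g : GL I27 F) (v : I27 → F) : act g (act g⁻¹ v) = v := by
  rw [← act_mul, mul_inv_cancel, act_one]

theorem act_add (g : GL I27 F) (v w : I27 → F) : act g (v + w) = act g v + act g w := Matrix.mulVec_add _ _ _

theorem act_smul (g : GL I27 F) (c : F) (v : I27 → F) : act g (c • v) = c • act g v := Matrix.mulVec_smul _ _ _

theorem mem_E6univ {g : GL I27 F} : g ∈ E6univ F ↔ ∀ v, T3 (act g v) = T3 v := by
  show (∀ v, cubicT ((Units.coeHom (Matrix I27 I27 F) g) *ᵥ v) = cubicT v) ↔ _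
  simp only [cubicT_eq]
  rfl

/-- Over a field with a third element, isometries preserve the linearisation. -/
theorem D3_act {g : GL I27 F} (hg : g ∈ E6univ F) (hF : ∃ c : F, c ≠ 0 ∧ c ≠ 1) (x y : I27 → F) :
    D3 (act g x) (act g y) = D3 x y := by
  have hg' := mem_E6univ.mp hg
  obtain ⟨c, hc0, hc1⟩ := hF
  have key : ∀ t : F, t * D3 (act g x) (act g y) + t ^ 2 * D3 (act g y) (act g x) = t * D3 x y + t ^ 2 * D3 y x := by
    intro t
    have h1 := hg' (x + t • y)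
    rw [act_add, act_smul, T3_add, T3_add, hg', hg'] at h1
    linear_combination h1
  have h1 := key 1
  have h2 := key c
  have h3 : (c - 1) * c * (D3 (act g y) (act g x) - D3 y x) = 0 := by
    linear_combination h2 - c * h1
  have h4 : D3 (act g y) (act g x) - D3 y x = 0 := by
    have : (c - 1) * c ≠ 0 := mul_ne_zero (sub_ne_zero.mpr hc1) hc0
    exact (mul_eq_zero.mp h3).resolve_left this
  have h5 : D3 (act g y) (act g x) = D3 y x := sub_eq_zero.mp h4
  rw [h5] at h1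
  linear_combination h1

theorem f3_act {g : GL I27 F} (hg : g ∈ E6univ F) (hF : ∃ c : F, c ≠ 0 ∧ c ≠ 1) (x y z : I27 → F) :
    f3 (act g x) (act g y) (act g z) = f3 x y z := by
  rw [f3_eq, f3_eq, ← act_add, D3_act hg hF, D3_act hg hF, D3_act hg hF]

/-! ### Formulas on coordinate vectors -/

/-- The monomials through a coordinate, with that coordinate removed. -/
def ddOf (L : List (ℤ × ℕ × ℕ × ℕ)) (w : ℕ) : List (ℤ × ℕ × ℕ) :=
  L.flatMap fun τ => (if τ.2.2.2 = w then [(τ.1, τ.2.1, τ.2.2.1)] else []) ++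
    (if τ.2.2.1 = w then [(τ.1, τ.2.1, τ.2.2.2)] else []) ++ (if τ.2.1 = w then [(τ.1, τ.2.2.1, τ.2.2.2)] else [])

/-- The monomials through a coordinate. -/
abbrev dd (w : ℕ) : List (ℤ × ℕ × ℕ) := ddOf triL w

/-- Evaluation of a quadratic sparse list. -/
def sumD (L : List (ℤ × ℕ × ℕ)) (x : I27 → F) : F :=
  (L.map fun e => (e.1 : F) * (x (dc e.2.1) * x (dc e.2.2))).sum

/-- Evaluation of a polarised quadratic sparse list. -/
def sumF (L : List (ℤ × ℕ × ℕ)) (x y : I27 → F) : F :=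
  (L.map fun e => (e.1 : F) * (x (dc e.2.1) * y (dc e.2.2) + y (dc e.2.1) * x (dc e.2.2))).sum

theorem bound_tri : ∀ τ ∈ triL, τ.2.1 < 27 ∧ τ.2.2.1 < 27 ∧ τ.2.2.2 < 27 ∧ τ.2.1 ≠ τ.2.2.1 ∧ τ.2.1 ≠ τ.2.2.2 ∧
    τ.2.2.1 ≠ τ.2.2.2 := by decide

theorem D3L_e (L : List (ℤ × ℕ × ℕ × ℕ)) (hL : ∀ τ ∈ L, τ.2.1 < 27 ∧ τ.2.2.1 < 27 ∧ τ.2.2.2 < 27) (x : I27 → F) (w : ℕ) :
    D3L L x (e w) = sumD (ddOf L w) x := by
  induction L with
  | nil => simp [D3L, ddOf, sumD]
  | cons τ L ih =>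
    obtain ⟨h1, h2, h3⟩ := hL τ List.mem_cons_self
    have ih' := ih (fun σ hσ => hL σ (List.mem_cons_of_mem _ hσ))
    simp only [D3L, List.map_cons, List.sum_cons, ddOf, List.flatMap_cons, sumD, List.map_append, List.sum_append] at ih' ⊢
    rw [ih', e_dc h1, e_dc h2, e_dc h3]
    by_cases a1 : τ.2.1 = w <;> by_cases a2 : τ.2.2.1 = w <;> by_cases a3 : τ.2.2.2 = w <;>
      simp [a1, a2, a3] <;> ring

theorem D3_e (x : I27 → F) (w : ℕ) : D3 x (e w) = sumD (dd w) x :=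
  D3L_e _ (fun τ hτ => ⟨(bound_tri τ hτ).1, (bound_tri τ hτ).2.1, (bound_tri τ hτ).2.2.1⟩) x w

theorem f3_e (x y : I27 → F) (w : ℕ) : f3 x y (e w) = sumF (dd w) x y := by
  have key : ∀ (L : List (ℤ × ℕ × ℕ)), sumD L (x + y) - sumD L x - sumD L y = sumF L x y := by
    intro L
    induction L with
    | nil => simp [sumD, sumF]
    | cons a L ih =>
      simp only [sumD, sumF, List.map_cons, List.sum_cons] at ih ⊢
      rw [← ih]
      simp only [Pi.add_apply]
      ring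
  rw [f3_eq, D3_e, D3_e, D3_e, key]

theorem D3_e_left (z : ℕ) (y : I27 → F) : D3 (e z) y = 0 := by
  have key : ∀ L : List (ℤ × ℕ × ℕ × ℕ), (∀ τ ∈ L, τ.2.1 < 27 ∧ τ.2.2.1 < 27 ∧ τ.2.2.2 < 27 ∧ τ.2.1 ≠ τ.2.2.1 ∧ τ.2.1 ≠ τ.2.2.2 ∧
      τ.2.2.1 ≠ τ.2.2.2) → D3L L (e z) y = 0 := by
    intro L hL
    induction L with
    | nil => simp [D3L]
    | cons τ L ih =>
      obtain ⟨h1, h2, h3, h4, h5, h6⟩ := hL τ List.mem_cons_self
      have ih' := ih (fun σ hσ => hL σ (List.mem_cons_of_mem _ hσ))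
      simp only [D3L, List.map_cons, List.sum_cons] at ih' ⊢
      rw [ih', e_dc h1, e_dc h2, e_dc h3]
      have a1 : (if τ.2.1 = z then (1 : F) else 0) * (if τ.2.2.1 = z then 1 else 0) = 0 := by
        by_cases c1 : τ.2.1 = z
        · have : τ.2.2.1 ≠ z := fun c2 => h4 (c1.trans c2.symm)
          simp [this]
        · simp [c1]
      have a2 : (if τ.2.1 = z then (1 : F) else 0) * (if τ.2.2.2 = z then 1 else 0) = 0 := by
        by_cases c1 : τ.2.1 = z
        · have : τ.2.2.2 ≠ z := fun c2 => h5 (c1.trans c2.symm)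
          simp [this]
        · simp [c1]
      have a3 : (if τ.2.2.1 = z then (1 : F) else 0) * (if τ.2.2.2 = z then 1 else 0) = 0 := by
        by_cases c1 : τ.2.2.1 = z
        · have : τ.2.2.2 ≠ z := fun c2 => h6 (c1.trans c2.symm)
          simp [this]
        · simp [c1]
      linear_combination (τ.1 : F) * ((y (dc τ.2.2.2)) * a1 + (y (dc τ.2.2.1)) * a2 + (y (dc τ.2.1)) * a3)
  exact key _ bound_tri

/-- The third lines. -/
def ff (a b : ℕ) : List (ℤ × ℕ) :=
  (dd b).flatMap fun x => (if x.2.1 = a then [(x.1, x.2.2)] else []) ++ (if x.2.2 = a then [(x.1, x.2.1)] else [])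

/-- Evaluation of a linear sparse list. -/
def sumL (L : List (ℤ × ℕ)) (x : I27 → F) : F :=
  (L.map fun e => (e.1 : F) * x (dc e.2)).sum

theorem bound_dd : ∀ b : Fin 27, ∀ x ∈ dd b.val, x.2.1 < 27 ∧ x.2.2 < 27 := by decide +kernel

theorem f3_ee (a b : ℕ) (hb : b < 27) (z : I27 → F) : f3 (e a) z (e b) = sumL (ff a b) z := by
  rw [f3_e]
  have key : ∀ L : List (ℤ × ℕ × ℕ), (∀ x ∈ L, x.2.1 < 27 ∧ x.2.2 < 27) →
      sumF L (e a) z = sumL (L.flatMap fun x => (if x.2.1 = a then [(x.1, x.2.2)] else []) ++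
        (if x.2.2 = a then [(x.1, x.2.1)] else [])) z := by
    intro L hL
    induction L with
    | nil => simp [sumF, sumL]
    | cons x L ih =>
      obtain ⟨h1, h2⟩ := hL x List.mem_cons_self
      have ih' := ih (fun σ hσ => hL σ (List.mem_cons_of_mem _ hσ))
      simp only [sumF, sumL, List.map_cons, List.sum_cons, List.flatMap_cons, List.map_append, List.sum_append] at ih' ⊢
      rw [ih', e_dc h1, e_dc h2]
      by_cases a1 : x.2.1 = a <;> by_cases a2 : x.2.2 = a <;> simp [a1, a2] <;> ring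
  exact key _ (bound_dd ⟨b, hb⟩)

theorem f3_ee' (a b : ℕ) (hb : b < 27) (z : I27 → F) : f3 (e a) (e b) z = sumL (ff a b) z := by
  rw [f3_swap, f3_ee a b hb]

end Cfsg.Agent.Lib.CubicE6.Form
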