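import Cfsg.Agent.Lib.CubicE6.Root

/-! The root elements preserve the form: the kernel check. -/

set_option autoImplicit false
set_option linter.unusedSectionVars false
set_option linter.unusedVariables false

namespace Cfsg.Agent.Lib.CubicE6.Pres

open Cfsg.Lie Matrix Cfsg.Agent.Lib.CubicE6.Tab Cfsg.Agent.Lib.CubicE6.Form Cfsg.Agent.Lib.CubicE6.Root
open scoped MatrixGroups

variable {F : Type*} [Field F]

theorem one_check : (List.range 72).all oneTarget = true := by decide +kernel

theorem pres_check : (List.range 72).all (fun r => (dLterms r).all fun x => coefK (dLterms r) x.2 == 0) = true := by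
  decide +kernel

theorem X_mem (r : ℕ) (t : F) : X r t ∈ E6univ F := by
  rw [mem_E6univ]
  intro v
  by_cases h : r < 72
  · have h1 := List.all_eq_true.mp one_check r (List.mem_range.mpr h)
    obtain ⟨h2, h3⟩ := D3_T3_N h1 v
    have h4 : D3 v (N F r *ᵥ v) = 0 := by
      rw [D3_N]
      have h5 := List.all_eq_true.mp pres_check r (List.mem_range.mpr h)
      have h6 : sumK (dLterms r) (monoS v) = sumK [] (monoS v) := by
        apply sumK_congr
        intro x hx
        rw [List.append_nil] at hx
        have := List.all_eq_true.mp h5 x hx
        simp only [beq_iff_eq] at this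
        rw [this]
        simp [coefK]
      rw [h6]
      simp [sumK]
    rw [act_X, T3_add, h4, h2, h3]
    ring
  · have : X r t = 1 := by
      apply Units.ext
      rw [X_val, N, Nt_out h]
      simp [sm]
    rw [this, act_one]

end Cfsg.Agent.Lib.CubicE6.Pres
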