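import Cfsg.Agent.Lib.CubicE6.RelChk
import Cfsg.Agent.Lib.Lie.Core
import Cfsg.Agent.Lib.Chev.Ax
import Cfsg.Prelude.Def_LieChev

/-!
The adjoint module of `E₆` maps to the matrices of the 27-dimensional module, compatibly with root elements.
-/

set_option autoImplicit false
set_option linter.unusedSectionVars false
set_option linter.unusedVariables false

namespace Cfsg.Agent.Lib.CubicE6.Rel

open Cfsg.Lie Matrix Cfsg.Agent.Lib.CubicE6.Tab Cfsg.Agent.Lib.CubicE6.Form Cfsg.Agent.Lib.CubicE6.Root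
open Cfsg.Agent.Lib.Lie.Core Cfsg.Agent.Lib.Chev.AxBasic Cfsg.Agent.Lib.CubicE6.RelChk
open scoped MatrixGroups

theorem coefR_eq (L : List (ℕ × ℕ × ℤ)) (a b : ℕ) (acc : ℤ) : coefR L a b acc = acc + coefL L a b := by
  induction L generalizing acc with
  | nil => simp [coefR, coefL]
  | cons x L ih =>
    rw [coefR, ih]
    have h2 : coefL (x :: L) a b = (if x.1 = a ∧ x.2.1 = b then x.2.2 else 0) + coefL L a b := by
      simp [coefL]
    rw [h2]
    by_cases c : x.1 = a ∧ x.2.1 = b
    · have h3 : (Nat.beq x.1 a && Nat.beq x.2.1 b) = true := by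
        simp [c.1, c.2]
      rw [h3, if_pos c]
      show acc + x.2.2 + _ = _
      ring
    · have h3 : (Nat.beq x.1 a && Nat.beq x.2.1 b) = false := by
        rw [Bool.and_eq_false_iff]
        by_contra hc
        push Not at hc
        simp only [Bool.not_eq_false] at hc
        exact c ⟨Nat.eq_of_beq_eq_true hc.1, Nat.eq_of_beq_eq_true hc.2⟩
      rw [h3, if_neg c]
      simp

theorem intEq_spec {a b : ℤ} (h : intEq a b = true) : a = b := by
  cases a <;> cases b <;> simp only [intEq, reduceCtorEq] at h ⊢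
  all_goals rw [Nat.eq_of_beq_eq_true h]

theorem eqL_of_eqF {L L' : List (ℕ × ℕ × ℤ)} (h : eqF L L' = true) : eqL L L' = true := by
  simp only [eqF, List.all_eq_true] at h
  simp only [eqL, List.all_eq_true, beq_iff_eq]
  intro x hx
  have := intEq_spec (h x hx)
  rw [coefR_eq, coefR_eq, zero_add, zero_add] at this
  exact this

theorem bound_prodL {L L' : List (ℕ × ℕ × ℤ)} (h : ∀ y ∈ L', y.2.1 < 27) : ∀ x ∈ prodL L L', x.2.1 < 27 := by
  intro x hx
  simp only [prodL, List.mem_flatMap] at hx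
  obtain ⟨a, _, b, hb, hx⟩ := hx
  split_ifs at hx
  · simp only [List.mem_singleton] at hx
    rw [hx]
    exact h b hb
  · simp at hx

variable {F : Type*} [Field F]

/-- The image of a coordinate of the adjoint module. -/
def A (F : Type*) [Field F] (c : ℕ) : Matrix I27 I27 F := sm (Aterm c)

theorem A_root {c : ℕ} (h : c < 72) : A F c = N F c := by
  simp [A, Aterm, h, N]

/-- The linear map from the adjoint module. -/
noncomputable def PiM (v : chevE6.Idx → F) : Matrix I27 I27 F := ∑ i, v i • A F (code chevE6 i)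

/-- The relation between the two groups. -/
def Rel (g : GL chevE6.Idx F) (h : GL I27 F) : Prop :=
  ∀ v, PiM ((g : Matrix chevE6.Idx chevE6.Idx F) *ᵥ v) = (h : Matrix I27 I27 F) * PiM v * ((h⁻¹ : GL I27 F) : Matrix I27 I27 F)

theorem Rel.mul {g g' : GL chevE6.Idx F} {h h' : GL I27 F} (hp : Rel g h) (hp' : Rel g' h') : Rel (g * g') (h * h') := by
  intro v
  rw [Units.val_mul, ← Matrix.mulVec_mulVec, hp, hp', _root_.mul_inv_rev, Units.val_mul, Units.val_mul]
  simp only [Matrix.mul_assoc]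

theorem Rel.one : Rel (1 : GL chevE6.Idx F) (1 : GL I27 F) := by
  intro v
  simp

theorem Rel.inv {g : GL chevE6.Idx F} {h : GL I27 F} (hp : Rel g h) : Rel g⁻¹ h⁻¹ := by
  intro v
  have h1 := hp ((↑(g⁻¹) : Matrix chevE6.Idx chevE6.Idx F) *ᵥ v)
  have h2 : (↑g : Matrix chevE6.Idx chevE6.Idx F) *ᵥ ((↑(g⁻¹) : Matrix chevE6.Idx chevE6.Idx F) *ᵥ v) = v := by
    rw [Matrix.mulVec_mulVec, ← Units.val_mul, mul_inv_cancel]
    simp
  rw [h2] at h1
  rw [h1, inv_inv]
  have h3 : ((h⁻¹ : GL I27 F) : Matrix I27 I27 F) * (h : Matrix I27 I27 F) = 1 := by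
    rw [← Units.val_mul, inv_mul_cancel, Units.val_one]
  generalize PiM ((↑(g⁻¹) : Matrix chevE6.Idx chevE6.Idx F) *ᵥ v) = P
  calc P = ((h⁻¹ : GL I27 F) : Matrix I27 I27 F) * (h : Matrix I27 I27 F) * P *
        (((h⁻¹ : GL I27 F) : Matrix I27 I27 F) * (h : Matrix I27 I27 F)) := by rw [h3]; simp
    _ = _ := by simp only [Matrix.mul_assoc]

/-- The relation as a subgroup. -/
def relSubgroup (F : Type*) [Field F] : Subgroup (GL chevE6.Idx F × GL I27 F) where
  carrier := {p | Rel p.1 p.2}
  mul_mem' := fun hp hp' => Rel.mul hp hp'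
  one_mem' := Rel.one
  inv_mem' := fun hp => Rel.inv hp

theorem sum_vecOf (L : List (ℕ × F)) (hL : ∀ e ∈ L, e.1 < chevE6.nroots + chevE6.rank) :
    ∑ i, vecOf chevE6 L i • A F (code chevE6 i) = (L.map fun e => e.2 • A F e.1).sum := by
  induction L with
  | nil => simp
  | cons e L ih =>
    simp only [vecOf_cons, add_smul, Finset.sum_add_distrib, List.map_cons, List.sum_cons]
    rw [ih (fun x hx => hL x (List.mem_cons_of_mem _ hx))]
    congr 1
    have hlt := hL e List.mem_cons_self
    rw [Finset.sum_eq_single (decode chevE6 e.1 hlt)]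
    · rw [code_decode]
      simp
    · intro b _ hb
      have : e.1 ≠ code chevE6 b := by
        intro h
        apply hb
        apply code_inj chevE6
        rw [code_decode, h]
      simp [this]
    · intro h
      exact absurd (Finset.mem_univ _) h

/-- The terms, by degree. -/
theorem sum_gather (t : F) (L : List (ℕ × ℕ × ℤ)) (hL : ∀ e ∈ L, e.2.1 < 3) :
    (L.map fun e => ((e.2.2 : F) * t ^ e.2.1) • A F e.1).sum =
      sm (gather L 0) + t • sm (gather L 1) + t ^ 2 • sm (gather L 2) := by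
  induction L with
  | nil => simp [gather, sm]
  | cons e L ih =>
    have h1 := hL e List.mem_cons_self
    rw [List.map_cons, List.sum_cons, ih (fun x hx => hL x (List.mem_cons_of_mem _ hx))]
    have hg : ∀ k, gather (e :: L) k =
        (if e.2.1 = k then scaleL e.2.2 (Aterm e.1) else []) ++ gather L k := by
      intro k
      by_cases c : e.2.1 = k <;> simp [gather, List.filter_cons, c]
    simp only [hg, sm_append]
    have h0 : e.2.1 = 0 ∨ e.2.1 = 1 ∨ e.2.1 = 2 := by omega
    rcases h0 with c | c | c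
    · simp only [c, if_true, sm_scale]
      simp only [show ¬ ((0 : ℕ) = 1) by norm_num, show ¬ ((0 : ℕ) = 2) by norm_num, if_false, sm_nil]
      simp [A]
      abel
    · simp only [c, if_true, sm_scale]
      simp only [show ¬ ((1 : ℕ) = 0) by norm_num, show ¬ ((1 : ℕ) = 2) by norm_num, if_false, sm_nil]
      simp only [A, pow_one, zero_add, smul_add, mul_smul]
      rw [smul_comm t (e.2.2 : F)]
      abel
    · simp only [c, if_true, sm_scale]
      simp only [show ¬ ((2 : ℕ) = 0) by norm_num, show ¬ ((2 : ℕ) = 1) by norm_num, if_false, sm_nil]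
      simp only [A, zero_add, smul_add, mul_smul]
      rw [smul_comm (t ^ 2) (e.2.2 : F)]
      abel

theorem conj_eval (r c : ℕ) (hc : c < 78) (t : F) :
    ((X r t : GL I27 F) : Matrix I27 I27 F) * A F c * (((X r t)⁻¹ : GL I27 F) : Matrix I27 I27 F) =
      sm (Aterm c) + t • sm (prodL (Nt r) (Aterm c) ++ scaleL (-1) (prodL (Aterm c) (Nt r))) +
        t ^ 2 • sm (scaleL (-1) (prodL (prodL (Nt r) (Aterm c)) (Nt r))) := by
  have b1 : ∀ x ∈ Nt r, x.2.1 < 27 := fun x hx => (bound_Nt r x hx).2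
  have b2 : ∀ x ∈ Aterm c, x.2.1 < 27 := bound_Aterm ⟨c, hc⟩
  rw [sm_append, sm_scale, sm_scale, ← sm_mul _ _ b1, ← sm_mul _ _ b2, ← sm_mul _ _ (bound_prodL b2), ← sm_mul _ _ b1]
  rw [X_val, X_inv_val]
  simp only [A, N]
  generalize (sm (Nt r) : Matrix I27 I27 F) = P
  generalize (sm (Aterm c) : Matrix I27 I27 F) = Q
  push_cast
  simp only [neg_smul, one_smul, smul_add, smul_neg, add_mul, mul_add, sub_mul, mul_sub, one_mul, mul_one, smul_mul_assoc,
    mul_smul_comm, smul_smul]
  rw [pow_two]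
  abel

/-- The intertwining property of a root element on a column. -/
theorem key_col {r : ℕ} (hr : r < chevE6.nroots) (t : F) (j : chevE6.Idx) :
    ∑ i, chevE6.xMat F ⟨r, hr⟩ t i j • A F (code chevE6 i) =
      ((X r t : GL I27 F) : Matrix I27 I27 F) * A F (code chevE6 j) * (((X r t)⁻¹ : GL I27 F) : Matrix I27 I27 F) := by
  have hc : code chevE6 j < 78 := code_lt chevE6 j
  have h1 : checkRel r (code chevE6 j) = true := checkRel_all hr hc
  simp only [checkRel, Bool.and_eq_true, List.all_eq_true, decide_eq_true_eq] at h1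
  obtain ⟨⟨⟨h2, h3⟩, h4⟩, h5⟩ := h1
  rw [conj_eval r _ hc, ← sm_eq_of_eqL (eqL_of_eqF h3), ← sm_eq_of_eqL (eqL_of_eqF h4), ← sm_eq_of_eqL (eqL_of_eqF h5)]
  have e1 : ∀ i, chevE6.xMat F ⟨r, hr⟩ t i j • A F (code chevE6 i) =
      vecOf chevE6 (evalTerms t (colTerms chevE6 r (code chevE6 j))) i • A F (code chevE6 i) := by
    intro i
    rw [xMat_apply]
  simp only [e1]
  rw [sum_vecOf _ (by
    intro e he
    simp only [evalTerms, List.mem_map] at he
    obtain ⟨x, hx, rfl⟩ := he
    exact (h2 x hx).1)]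
  have e2 : ((evalTerms t (colTerms chevE6 r (code chevE6 j))).map fun e => e.2 • A F e.1) =
      (colTerms chevE6 r (code chevE6 j)).map fun e => ((e.2.2 : F) * t ^ e.2.1) • A F e.1 := by
    simp [evalTerms]
  rw [e2, sum_gather t _ (fun e he => (h2 e he).2)]

/-- The intertwining property of a root element. -/
theorem rel_root {r : ℕ} (hr : r < chevE6.nroots) (t : F) {g : GL chevE6.Idx F}
    (hg : (g : Matrix chevE6.Idx chevE6.Idx F) = chevE6.xMat F ⟨r, hr⟩ t) : Rel g (X r t) := by
  intro v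
  rw [hg]
  unfold PiM
  have e1 : ∀ i, (chevE6.xMat F ⟨r, hr⟩ t *ᵥ v) i • A F (code chevE6 i) =
      ∑ j, v j • (chevE6.xMat F ⟨r, hr⟩ t i j • A F (code chevE6 i)) := by
    intro i
    simp only [Matrix.mulVec, dotProduct, Finset.sum_smul, smul_smul]
    refine Finset.sum_congr rfl fun j _ => ?_
    rw [mul_comm]
  simp only [e1]
  rw [Finset.sum_comm]
  have e2 : ∀ j, ∑ i, v j • (chevE6.xMat F ⟨r, hr⟩ t i j • A F (code chevE6 i)) =
      v j • (((X r t : GL I27 F) : Matrix I27 I27 F) * A F (code chevE6 j) * (((X r t)⁻¹ : GL I27 F) : Matrix I27 I27 F)) := by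
    intro j
    rw [← Finset.smul_sum, key_col hr t]
  simp only [e2]
  rw [Finset.mul_sum, Finset.sum_mul]
  refine Finset.sum_congr rfl fun j _ => ?_
  rw [Matrix.mul_smul, Matrix.smul_mul]

theorem Pi_root (r : Fin chevE6.nroots) :
    PiM ((Pi.single (Sum.inr r) 1 : chevE6.Idx → F)) = N F r := by
  unfold PiM
  rw [Finset.sum_eq_single (Sum.inr r)]
  · simp only [Pi.single_eq_same, one_smul]
    exact A_root r.2
  · intro b _ hb
    simp [Pi.single_apply, hb]
  · intro h
    exact absurd (Finset.mem_univ _) h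

end Cfsg.Agent.Lib.CubicE6.Rel
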