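import Cfsg.Agent.Lib.CubicE6.Root
import Cfsg.Agent.Lib.Lie.Core
import Cfsg.Agent.Lib.Chev.Ax
import Cfsg.Prelude.Def_LieChev

/-!
The table check for the map from the adjoint module of `E₆` to the matrices of the 27-dimensional module.
-/

set_option autoImplicit false
set_option linter.unusedSectionVars false
set_option linter.unusedVariables false

namespace Cfsg.Agent.Lib.CubicE6.RelChk

open Cfsg.Lie Matrix Cfsg.Agent.Lib.CubicE6.Tab Cfsg.Agent.Lib.CubicE6.Form Cfsg.Agent.Lib.CubicE6.Root
open Cfsg.Agent.Lib.Lie.Core Cfsg.Agent.Lib.Chev.AxBasic
open scoped MatrixGroups

/-- The diagonal matrix of a fundamental coroot. -/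
def Ht (i : ℕ) : List (ℕ × ℕ × ℤ) := (HtL.getD i []).map fun x => (x.1, x.1, x.2)

/-- The image of a coordinate of the adjoint module. -/
def Aterm (c : ℕ) : List (ℕ × ℕ × ℤ) := if c < 72 then Nt c else Ht (c - 72)

/-- The terms of a given degree. -/
def gather (L : List (ℕ × ℕ × ℤ)) (k : ℕ) : List (ℕ × ℕ × ℤ) :=
  (L.filter fun e => e.2.1 = k).flatMap fun e => scaleL e.2.2 (Aterm e.1)

/-- The coefficient in a sparse list, with an accumulator. -/
def coefR : List (ℕ × ℕ × ℤ) → ℕ → ℕ → ℤ → ℤ
  | [], _, _, acc => acc
  | x :: L, a, b, acc => coefR L a b (cond (Nat.beq x.1 a && Nat.beq x.2.1 b) (Int.add acc x.2.2) acc)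

/-- Equality of integers. -/
def intEq : ℤ → ℤ → Bool
  | .ofNat a, .ofNat b => Nat.beq a b
  | .negSucc a, .negSucc b => Nat.beq a b
  | _, _ => false

/-- Equality of the coefficients at the terms occurring. -/
def eqF (L L' : List (ℕ × ℕ × ℤ)) : Bool :=
  (L ++ L').all fun x => intEq (coefR L x.1 x.2.1 0) (coefR L' x.1 x.2.1 0)

/-- The check for a root and a coordinate. -/
def checkRel (r c : ℕ) : Bool :=
  (colTerms chevE6 r c).all (fun e => e.1 < 78 && e.2.1 < 3) &&
  eqF (gather (colTerms chevE6 r c) 0) (Aterm c) &&
  eqF (gather (colTerms chevE6 r c) 1) (prodL (Nt r) (Aterm c) ++ scaleL (-1) (prodL (Aterm c) (Nt r))) &&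
  eqF (gather (colTerms chevE6 r c) 2) (scaleL (-1) (prodL (prodL (Nt r) (Aterm c)) (Nt r)))

theorem bound_Aterm : ∀ c : Fin 78, ∀ x ∈ Aterm c.val, x.2.1 < 27 := by decide +kernel

theorem c0 : (List.range 78).all (checkRel 0) = true := by decide +kernel
theorem c1 : (List.range 78).all (checkRel 1) = true := by decide +kernel
theorem c2 : (List.range 78).all (checkRel 2) = true := by decide +kernel
theorem c3 : (List.range 78).all (checkRel 3) = true := by decide +kernel
theorem c4 : (List.range 78).all (checkRel 4) = true := by decide +kernel
theorem c5 : (List.range 78).all (checkRel 5) = true := by decide +kernel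
theorem c6 : (List.range 78).all (checkRel 6) = true := by decide +kernel
theorem c7 : (List.range 78).all (checkRel 7) = true := by decide +kernel
theorem c8 : (List.range 78).all (checkRel 8) = true := by decide +kernel
theorem c9 : (List.range 78).all (checkRel 9) = true := by decide +kernel
theorem c10 : (List.range 78).all (checkRel 10) = true := by decide +kernel
theorem c11 : (List.range 78).all (checkRel 11) = true := by decide +kernel
theorem c12 : (List.range 78).all (checkRel 12) = true := by decide +kernel
theorem c13 : (List.range 78).all (checkRel 13) = true := by decide +kernel
theorem c14 : (List.range 78).all (checkRel 14) = true := by decide +kernel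
theorem c15 : (List.range 78).all (checkRel 15) = true := by decide +kernel
theorem c16 : (List.range 78).all (checkRel 16) = true := by decide +kernel
theorem c17 : (List.range 78).all (checkRel 17) = true := by decide +kernel
theorem c18 : (List.range 78).all (checkRel 18) = true := by decide +kernel
theorem c19 : (List.range 78).all (checkRel 19) = true := by decide +kernel
theorem c20 : (List.range 78).all (checkRel 20) = true := by decide +kernel
theorem c21 : (List.range 78).all (checkRel 21) = true := by decide +kernel
theorem c22 : (List.range 78).all (checkRel 22) = true := by decide +kernel
theorem c23 : (List.range 78).all (checkRel 23) = true := by decide +kernel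
theorem c24 : (List.range 78).all (checkRel 24) = true := by decide +kernel
theorem c25 : (List.range 78).all (checkRel 25) = true := by decide +kernel
theorem c26 : (List.range 78).all (checkRel 26) = true := by decide +kernel
theorem c27 : (List.range 78).all (checkRel 27) = true := by decide +kernel
theorem c28 : (List.range 78).all (checkRel 28) = true := by decide +kernel
theorem c29 : (List.range 78).all (checkRel 29) = true := by decide +kernel
theorem c30 : (List.range 78).all (checkRel 30) = true := by decide +kernel
theorem c31 : (List.range 78).all (checkRel 31) = true := by decide +kernel
theorem c32 : (List.range 78).all (checkRel 32) = true := by decide +kernel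
theorem c33 : (List.range 78).all (checkRel 33) = true := by decide +kernel
theorem c34 : (List.range 78).all (checkRel 34) = true := by decide +kernel
theorem c35 : (List.range 78).all (checkRel 35) = true := by decide +kernel
theorem c36 : (List.range 78).all (checkRel 36) = true := by decide +kernel
theorem c37 : (List.range 78).all (checkRel 37) = true := by decide +kernel
theorem c38 : (List.range 78).all (checkRel 38) = true := by decide +kernel
theorem c39 : (List.range 78).all (checkRel 39) = true := by decide +kernel
theorem c40 : (List.range 78).all (checkRel 40) = true := by decide +kernel
theorem c41 : (List.range 78).all (checkRel 41) = true := by decide +kernel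
theorem c42 : (List.range 78).all (checkRel 42) = true := by decide +kernel
theorem c43 : (List.range 78).all (checkRel 43) = true := by decide +kernel
theorem c44 : (List.range 78).all (checkRel 44) = true := by decide +kernel
theorem c45 : (List.range 78).all (checkRel 45) = true := by decide +kernel
theorem c46 : (List.range 78).all (checkRel 46) = true := by decide +kernel
theorem c47 : (List.range 78).all (checkRel 47) = true := by decide +kernel
theorem c48 : (List.range 78).all (checkRel 48) = true := by decide +kernel
theorem c49 : (List.range 78).all (checkRel 49) = true := by decide +kernel
theorem c50 : (List.range 78).all (checkRel 50) = true := by decide +kernel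
theorem c51 : (List.range 78).all (checkRel 51) = true := by decide +kernel
theorem c52 : (List.range 78).all (checkRel 52) = true := by decide +kernel
theorem c53 : (List.range 78).all (checkRel 53) = true := by decide +kernel
theorem c54 : (List.range 78).all (checkRel 54) = true := by decide +kernel
theorem c55 : (List.range 78).all (checkRel 55) = true := by decide +kernel
theorem c56 : (List.range 78).all (checkRel 56) = true := by decide +kernel
theorem c57 : (List.range 78).all (checkRel 57) = true := by decide +kernel
theorem c58 : (List.range 78).all (checkRel 58) = true := by decide +kernel
theorem c59 : (List.range 78).all (checkRel 59) = true := by decide +kernel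
theorem c60 : (List.range 78).all (checkRel 60) = true := by decide +kernel
theorem c61 : (List.range 78).all (checkRel 61) = true := by decide +kernel
theorem c62 : (List.range 78).all (checkRel 62) = true := by decide +kernel
theorem c63 : (List.range 78).all (checkRel 63) = true := by decide +kernel
theorem c64 : (List.range 78).all (checkRel 64) = true := by decide +kernel
theorem c65 : (List.range 78).all (checkRel 65) = true := by decide +kernel
theorem c66 : (List.range 78).all (checkRel 66) = true := by decide +kernel
theorem c67 : (List.range 78).all (checkRel 67) = true := by decide +kernel
theorem c68 : (List.range 78).all (checkRel 68) = true := by decide +kernel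
theorem c69 : (List.range 78).all (checkRel 69) = true := by decide +kernel
theorem c70 : (List.range 78).all (checkRel 70) = true := by decide +kernel
theorem c71 : (List.range 78).all (checkRel 71) = true := by decide +kernel

theorem checkRel_all {r c : ℕ} (hr : r < 72) (hc : c < 78) : checkRel r c = true := by
  have key : (List.range 78).all (checkRel r) = true := by
    interval_cases r
    · exact c0
    · exact c1
    · exact c2
    · exact c3
    · exact c4
    · exact c5
    · exact c6
    · exact c7
    · exact c8
    · exact c9
    · exact c10
    · exact c11
    · exact c12
    · exact c13
    · exact c14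
    · exact c15
    · exact c16
    · exact c17
    · exact c18
    · exact c19
    · exact c20
    · exact c21
    · exact c22
    · exact c23
    · exact c24
    · exact c25
    · exact c26
    · exact c27
    · exact c28
    · exact c29
    · exact c30
    · exact c31
    · exact c32
    · exact c33
    · exact c34
    · exact c35
    · exact c36
    · exact c37
    · exact c38
    · exact c39
    · exact c40
    · exact c41
    · exact c42
    · exact c43
    · exact c44
    · exact c45
    · exact c46
    · exact c47
    · exact c48
    · exact c49
    · exact c50
    · exact c51
    · exact c52
    · exact c53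
    · exact c54
    · exact c55
    · exact c56
    · exact c57
    · exact c58
    · exact c59
    · exact c60
    · exact c61
    · exact c62
    · exact c63
    · exact c64
    · exact c65
    · exact c66
    · exact c67
    · exact c68
    · exact c69
    · exact c70
    · exact c71
  exact List.all_eq_true.mp key c (List.mem_range.mpr hc)

end Cfsg.Agent.Lib.CubicE6.RelChk
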