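import Cfsg.Agent.Lib.CubicE6.Form

/-!
The root elements `1 + t N_r` of the cubic form.
-/

set_option autoImplicit false
set_option linter.unusedSectionVars false
set_option linter.unusedVariables false

namespace Cfsg.Agent.Lib.CubicE6.Root

open Cfsg.Lie Matrix Cfsg.Agent.Lib.CubicE6.Tab Cfsg.Agent.Lib.CubicE6.Form
open scoped MatrixGroups

/-- The entries of the matrix of a root. -/
def Nt (r : ℕ) : List (ℕ × ℕ × ℤ) := NtL.getD r []

theorem Nt_out {r : ℕ} (h : ¬ r < 72) : Nt r = [] := by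
  have : NtL.length ≤ r := by
    have e : NtL.length = 72 := by decide
    omega
  simp [Nt, List.getD, List.getElem?_eq_none this]

variable {F : Type*} [Field F]

/-- A matrix unit, by codes. -/
def E (a b : ℕ) : Matrix I27 I27 F := Matrix.of fun u w => if cd u = a ∧ cd w = b then 1 else 0

theorem E_mul_E {a b b' d : ℕ} (hb : b < 27) : (E a b * E b' d : Matrix I27 I27 F) = if b = b' then E a d else 0 := by
  ext u x
  rw [Matrix.mul_apply]
  by_cases h : b = b'
  · subst h
    rw [if_pos rfl]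
    rw [Finset.sum_eq_single (dc b)]
    · by_cases c1 : cd u = a <;> by_cases c2 : cd x = d <;> simp [E, cd_dc hb, c1, c2]
    · intro w _ hw
      have : cd w ≠ b := by
        intro h
        apply hw
        rw [← h, dc_cd]
      simp [E, this]
    · intro h
      exact absurd (Finset.mem_univ _) h
  · rw [if_neg h, Matrix.zero_apply]
    apply Finset.sum_eq_zero
    intro w _
    simp only [E, Matrix.of_apply]
    by_cases h1 : cd w = b
    · have : cd w ≠ b' := fun h2 => h (h1.symm.trans h2)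
      simp [this]
    · simp [h1]

theorem E_mulVec {a b : ℕ} (hb : b < 27) (v : I27 → F) (u : I27) :
    (E a b *ᵥ v) u = if cd u = a then v (dc b) else 0 := by
  rw [Matrix.mulVec, dotProduct]
  rw [Finset.sum_eq_single (dc b)]
  · simp [E, cd_dc hb]
  · intro w _ hw
    have : cd w ≠ b := by
      intro h
      apply hw
      rw [← h, dc_cd]
    simp [E, this]
  · intro h
    exact absurd (Finset.mem_univ _) h

/-- The matrix of a sparse list. -/
def sm (L : List (ℕ × ℕ × ℤ)) : Matrix I27 I27 F := (L.map fun x => (x.2.2 : F) • E x.1 x.2.1).sum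

theorem sm_nil : (sm [] : Matrix I27 I27 F) = 0 := rfl

theorem sm_cons (x : ℕ × ℕ × ℤ) (L : List (ℕ × ℕ × ℤ)) :
    (sm (x :: L) : Matrix I27 I27 F) = (x.2.2 : F) • E x.1 x.2.1 + sm L := by
  simp [sm]

theorem sm_append (L L' : List (ℕ × ℕ × ℤ)) : (sm (L ++ L') : Matrix I27 I27 F) = sm L + sm L' := by
  simp [sm]

/-- Scaling of a sparse list. -/
def scaleL (m : ℤ) (L : List (ℕ × ℕ × ℤ)) : List (ℕ × ℕ × ℤ) := L.map fun x => (x.1, x.2.1, m * x.2.2)

theorem sm_scale (m : ℤ) (L : List (ℕ × ℕ × ℤ)) : (sm (scaleL m L) : Matrix I27 I27 F) = (m : F) • sm L := by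
  induction L with
  | nil => simp [scaleL, sm]
  | cons x L ih =>
    simp only [scaleL, List.map_cons] at ih ⊢
    rw [sm_cons, sm_cons, ih, smul_add, smul_smul]
    push_cast
    rfl

/-- The product of two sparse lists. -/
def prodL (L L' : List (ℕ × ℕ × ℤ)) : List (ℕ × ℕ × ℤ) :=
  L.flatMap fun x => L'.flatMap fun y => if x.2.1 = y.1 then [(x.1, y.2.1, x.2.2 * y.2.2)] else []

theorem sm_mul (L L' : List (ℕ × ℕ × ℤ)) (hL : ∀ x ∈ L, x.2.1 < 27) :
    (sm L * sm L' : Matrix I27 I27 F) = sm (prodL L L') := by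
  induction L with
  | nil => simp [sm, prodL]
  | cons x L ih =>
    have h1 := hL x List.mem_cons_self
    have ih' := ih (fun y hy => hL y (List.mem_cons_of_mem _ hy))
    have h2 : prodL (x :: L) L' = (L'.flatMap fun y => if x.2.1 = y.1 then [(x.1, y.2.1, x.2.2 * y.2.2)] else []) ++ prodL L L' := by
      simp [prodL]
    rw [h2, sm_append, ← ih', sm_cons, add_mul]
    congr 1
    clear ih ih' h2
    induction L' with
    | nil => simp [sm]
    | cons y L' ih2 =>
      rw [sm_cons, mul_add, ih2, List.flatMap_cons, sm_append]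
      congr 1
      by_cases h : x.2.1 = y.1
      · simp only [if_pos h, sm_cons, sm_nil, add_zero]
        rw [smul_mul_smul_comm, E_mul_E h1, if_pos h]
        push_cast
        rfl
      · simp only [if_neg h, sm_nil]
        rw [smul_mul_smul_comm, E_mul_E h1, if_neg h, smul_zero]

/-- The coefficient in a sparse list. -/
def coefL (L : List (ℕ × ℕ × ℤ)) (a b : ℕ) : ℤ :=
  (L.map fun x => if x.1 = a ∧ x.2.1 = b then x.2.2 else 0).sum

theorem sm_apply (L : List (ℕ × ℕ × ℤ)) (u w : I27) :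
    (sm L : Matrix I27 I27 F) u w = (coefL L (cd u) (cd w) : F) := by
  induction L with
  | nil => simp [sm, coefL]
  | cons x L ih =>
    have h2 : coefL (x :: L) (cd u) (cd w) = (if x.1 = cd u ∧ x.2.1 = cd w then x.2.2 else 0) + coefL L (cd u) (cd w) := by
      simp [coefL]
    rw [sm_cons, h2, Matrix.add_apply, ih, Matrix.smul_apply]
    push_cast
    congr 1
    simp only [E, Matrix.of_apply, smul_eq_mul]
    by_cases c1 : x.1 = cd u <;> by_cases c2 : x.2.1 = cd w <;> simp [c1, c2, eq_comm]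

theorem coefL_eq_zero (L : List (ℕ × ℕ × ℤ)) (a b : ℕ) (h : ∀ x ∈ L, ¬ (x.1 = a ∧ x.2.1 = b)) : coefL L a b = 0 := by
  unfold coefL
  apply List.sum_eq_zero
  intro y hy
  obtain ⟨x, hx, rfl⟩ := List.mem_map.mp hy
  rw [if_neg (h x hx)]

/-- Equality of the coefficients at the terms occurring. -/
def eqL (L L' : List (ℕ × ℕ × ℤ)) : Bool :=
  (L ++ L').all fun x => coefL L x.1 x.2.1 == coefL L' x.1 x.2.1

theorem sm_eq_of_eqL {L L' : List (ℕ × ℕ × ℤ)} (h : eqL L L' = true) : (sm L : Matrix I27 I27 F) = sm L' := by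
  simp only [eqL, List.all_eq_true, beq_iff_eq] at h
  ext u w
  rw [sm_apply, sm_apply]
  by_cases h1 : ∃ x ∈ L ++ L', x.1 = cd u ∧ x.2.1 = cd w
  · obtain ⟨x, hx, e1, e2⟩ := h1
    have := h x hx
    rw [e1, e2] at this
    rw [this]
  · push Not at h1
    rw [coefL_eq_zero L _ _ (fun x hx c => h1 x (List.mem_append_left _ hx) c.1 c.2),
      coefL_eq_zero L' _ _ (fun x hx c => h1 x (List.mem_append_right _ hx) c.1 c.2)]

/-- The nilpotent matrix of a root. -/
def N (F : Type*) [Field F] (r : ℕ) : Matrix I27 I27 F := sm (Nt r)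

theorem bound_Nt : ∀ r, ∀ x ∈ Nt r, x.1 < 27 ∧ x.2.1 < 27 := by
  intro r x hx
  by_cases h : r < 72
  · have key : ∀ r : Fin 72, ∀ x ∈ Nt r.val, x.1 < 27 ∧ x.2.1 < 27 := by decide +kernel
    exact key ⟨r, h⟩ x hx
  · rw [Nt_out h] at hx
    simp at hx

theorem Nt_sq : ∀ r, prodL (Nt r) (Nt r) = [] := by
  intro r
  by_cases h : r < 72
  · have key : ∀ r : Fin 72, prodL (Nt r.val) (Nt r.val) = [] := by decide +kernel
    exact key ⟨r, h⟩
  · rw [Nt_out h]
    simp [prodL]

theorem N_sq (r : ℕ) : N F r * N F r = 0 := by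
  rw [N, sm_mul _ _ (fun x hx => (bound_Nt r x hx).2), Nt_sq, sm_nil]

/-- The root element. -/
def X (r : ℕ) (t : F) : GL I27 F where
  val := 1 + t • N F r
  inv := 1 - t • N F r
  val_inv := by
    simp only [mul_sub, add_mul, one_mul, mul_one, smul_mul_smul_comm, N_sq, smul_zero]
    abel
  inv_val := by
    simp only [mul_add, sub_mul, one_mul, mul_one, smul_mul_smul_comm, N_sq, smul_zero]
    abel

theorem X_val (r : ℕ) (t : F) : ((X r t : GL I27 F) : Matrix I27 I27 F) = 1 + t • N F r := rfl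

theorem X_inv_val (r : ℕ) (t : F) : (((X r t)⁻¹ : GL I27 F) : Matrix I27 I27 F) = 1 - t • N F r := rfl

theorem X_zero (r : ℕ) : X r (0 : F) = 1 := by
  apply Units.ext
  rw [X_val]
  simp

/-- The action of the nilpotent matrix on a coordinate. -/
def sumTg (L : List (ℕ × ℕ × ℤ)) (n : ℕ) (v : I27 → F) : F :=
  (L.map fun x => if x.1 = n then (x.2.2 : F) * v (dc x.2.1) else 0).sum

theorem N_apply (r : ℕ) (v : I27 → F) (u : I27) : (N F r *ᵥ v) u = sumTg (Nt r) (cd u) v := by
  rw [N]
  have key : ∀ L : List (ℕ × ℕ × ℤ), (∀ x ∈ L, x.1 < 27 ∧ x.2.1 < 27) → (sm L *ᵥ v) u = sumTg L (cd u) v := by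
    intro L hL
    induction L with
    | nil => simp [sm, sumTg]
    | cons x L ih =>
      have h1 := (hL x List.mem_cons_self).2
      rw [sm_cons, Matrix.add_mulVec, Pi.add_apply, ih (fun y hy => hL y (List.mem_cons_of_mem _ hy)), Matrix.smul_mulVec,
        Pi.smul_apply, E_mulVec h1]
      simp only [sumTg, List.map_cons, List.sum_cons, smul_eq_mul]
      congr 1
      by_cases c : x.1 = cd u
      · simp [c]
      · simp [c, Ne.symm c]
  exact key _ (bound_Nt r)

theorem act_X (r : ℕ) (t : F) (v : I27 → F) : act (X r t) v = v + t • (N F r *ᵥ v) := by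
  show (X r t : GL I27 F).1 *ᵥ v = _
  rw [X_val, Matrix.add_mulVec, Matrix.one_mulVec, Matrix.smul_mulVec]

theorem act_X_apply (r : ℕ) (t : F) (v : I27 → F) (u : I27) :
    act (X r t) v u = v u + t * sumTg (Nt r) (cd u) v := by
  rw [act_X, Pi.add_apply, Pi.smul_apply, N_apply, smul_eq_mul]

theorem act_X_dc (r : ℕ) (t : F) (v : I27 → F) {n : ℕ} (hn : n < 27) :
    act (X r t) v (dc n) = v (dc n) + t * sumTg (Nt r) n v := by
  rw [act_X_apply, cd_dc hn]

theorem sumTg_zero' {L : List (ℕ × ℕ × ℤ)} {n : ℕ} (h : ∀ x ∈ L, x.1 ≠ n) (v : I27 → F) : sumTg L n v = 0 := by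
  unfold sumTg
  apply List.sum_eq_zero
  intro y hy
  obtain ⟨x, hx, rfl⟩ := List.mem_map.mp hy
  rw [if_neg (h x hx)]

/-! ### Cancellation of sparse sums -/

section Cancel

variable {K : Type*} [DecidableEq K]

/-- The coefficient of a key. -/
def coefK (L : List (ℤ × K)) (κ : K) : ℤ := (L.map fun x => if x.2 = κ then x.1 else 0).sum

/-- A sparse sum. -/
def sumK (L : List (ℤ × K)) (M : K → F) : F := (L.map fun x => (x.1 : F) * M x.2).sum

theorem sumK_eq (L : List (ℤ × K)) (M : K → F) (S : Finset K) (h : ∀ x ∈ L, x.2 ∈ S) :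
    sumK L M = ∑ κ ∈ S, (coefK L κ : F) * M κ := by
  induction L with
  | nil => simp [sumK, coefK]
  | cons x L ih =>
    have h1 := ih (fun y hy => h y (List.mem_cons_of_mem _ hy))
    have h2 := h x List.mem_cons_self
    have h3 : ∀ κ, coefK (x :: L) κ = (if x.2 = κ then x.1 else 0) + coefK L κ := by
      intro κ
      simp [coefK]
    simp only [h3]
    push_cast
    simp only [add_mul, Finset.sum_add_distrib]
    rw [← h1]
    have h4 : sumK (x :: L) M = (x.1 : F) * M x.2 + sumK L M := by simp [sumK]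
    rw [h4]
    congr 1
    rw [Finset.sum_eq_single x.2]
    · simp
    · intro κ _ hκ
      rw [if_neg (Ne.symm hκ)]
      simp
    · intro h
      exact absurd h2 h

theorem sumK_congr (L L' : List (ℤ × K)) (M : K → F) (h : ∀ x ∈ L ++ L', coefK L x.2 = coefK L' x.2) :
    sumK L M = sumK L' M := by
  classical
  have hS : ∀ x ∈ L, x.2 ∈ ((L ++ L').map Prod.snd).toFinset := by
    intro x hx
    simp only [List.mem_toFinset, List.mem_map]
    exact ⟨x, List.mem_append_left _ hx, rfl⟩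
  have hS' : ∀ x ∈ L', x.2 ∈ ((L ++ L').map Prod.snd).toFinset := by
    intro x hx
    simp only [List.mem_toFinset, List.mem_map]
    exact ⟨x, List.mem_append_right _ hx, rfl⟩
  rw [sumK_eq L M _ hS, sumK_eq L' M _ hS']
  refine Finset.sum_congr rfl fun κ hκ => ?_
  simp only [List.mem_toFinset, List.mem_map] at hκ
  obtain ⟨x, hx, rfl⟩ := hκ
  rw [h x hx]

end Cancel

/-! ### The root elements preserve the form -/

/-- Sorting three numbers. -/
def sort3 (x y z : ℕ) : ℕ × ℕ × ℕ :=
  if x ≤ y then (if y ≤ z then (x, y, z) else if x ≤ z then (x, z, y) else (z, x, y))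
  else (if x ≤ z then (y, x, z) else if y ≤ z then (y, z, x) else (z, y, x))

/-- A monomial. -/
def monoS (v : I27 → F) (κ : ℕ × ℕ × ℕ) : F := v (dc κ.1) * v (dc κ.2.1) * v (dc κ.2.2)

theorem monoS_sort (v : I27 → F) (x y z : ℕ) : monoS v (sort3 x y z) = v (dc x) * (v (dc y) * v (dc z)) := by
  unfold sort3
  split_ifs <;> simp only [monoS] <;> ring

/-- The terms of `D(v, N v)`. -/
def dLterms (r : ℕ) : List (ℤ × ℕ × ℕ × ℕ) :=
  (Nt r).flatMap fun x => (dd x.1).map fun y => (x.2.2 * y.1, sort3 x.2.1 y.2.1 y.2.2)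

theorem D3L_add_right (L : List (ℤ × ℕ × ℕ × ℕ)) (x y y' : I27 → F) : D3L L x (y + y') = D3L L x y + D3L L x y' := by
  induction L with
  | nil => simp [D3L]
  | cons τ L ih =>
    simp only [D3L, List.map_cons, List.sum_cons] at ih ⊢
    rw [ih]
    simp only [Pi.add_apply]
    ring

theorem D3L_smul_right (L : List (ℤ × ℕ × ℕ × ℕ)) (c : F) (x y : I27 → F) : D3L L x (c • y) = c * D3L L x y := by
  induction L with
  | nil => simp [D3L]
  | cons τ L ih =>
    simp only [D3L, List.map_cons, List.sum_cons] at ih ⊢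
    rw [ih]
    simp only [Pi.smul_apply, smul_eq_mul]
    ring

theorem D3L_zero_right (L : List (ℤ × ℕ × ℕ × ℕ)) (x : I27 → F) : D3L L x 0 = 0 := by
  induction L with
  | nil => simp [D3L]
  | cons τ L ih =>
    simp only [D3L, List.map_cons, List.sum_cons] at ih ⊢
    rw [ih]
    simp

theorem sumD_terms (v : I27 → F) (c : ℤ) (p : ℕ) (L : List (ℤ × ℕ × ℕ)) :
    (c : F) * v (dc p) * sumD L v =
      sumK (L.map fun y => (c * y.1, sort3 p y.2.1 y.2.2)) (monoS v) := by
  induction L with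
  | nil => simp [sumD, sumK]
  | cons y L ih =>
    simp only [sumD, sumK, List.map_cons, List.sum_cons] at ih ⊢
    rw [← ih, monoS_sort]
    push_cast
    ring

theorem D3_N_aux (v : I27 → F) (M : List (ℕ × ℕ × ℤ)) :
    D3 v (fun u => sumTg M (cd u) v) =
      sumK (M.flatMap fun x => (dd x.1).map fun y => (x.2.2 * y.1, sort3 x.2.1 y.2.1 y.2.2)) (monoS v) := by
  induction M with
  | nil =>
    have : (fun u => sumTg ([] : List (ℕ × ℕ × ℤ)) (cd u) v) = 0 := by
      funext u
      simp [sumTg]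
    rw [this]
    simp [sumK, D3L_zero_right]
  | cons x M ih =>
    have e1 : (fun u => sumTg (x :: M) (cd u) v) = ((x.2.2 : F) * v (dc x.2.1)) • e x.1 + fun u => sumTg M (cd u) v := by
      funext u
      simp only [sumTg, List.map_cons, List.sum_cons, Pi.add_apply, Pi.smul_apply, smul_eq_mul, e]
      congr 1
      by_cases c : cd u = x.1
      · simp [c]
      · simp [c, Ne.symm c]
    rw [e1, List.flatMap_cons]
    have e2 : ∀ L L' : List (ℤ × ℕ × ℕ × ℕ), sumK (L ++ L') (monoS v) = sumK L (monoS v) + sumK L' (monoS v) := by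
      intro L L'
      simp [sumK]
    rw [e2, ← ih, ← sumD_terms, ← D3_e]
    exact (D3L_add_right _ _ _ _).trans (by rw [D3L_smul_right])

theorem N_fun (r : ℕ) (v : I27 → F) : (N F r *ᵥ v) = fun u => sumTg (Nt r) (cd u) v := by
  funext u
  exact N_apply r v u

theorem D3_N (r : ℕ) (v : I27 → F) : D3 v (N F r *ᵥ v) = sumK (dLterms r) (monoS v) := by
  rw [N_fun]
  exact D3_N_aux v (Nt r)

/-- Whether a coordinate is a target of the root. -/
def isTg (r n : ℕ) : Bool := (Nt r).any fun x => x.1 == n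

/-- No monomial has two targets. -/
def oneTarget (r : ℕ) : Bool :=
  triL.all fun τ => !(isTg r τ.2.1 && isTg r τ.2.2.1) && !(isTg r τ.2.1 && isTg r τ.2.2.2) && !(isTg r τ.2.2.1 && isTg r τ.2.2.2)

theorem N_zero {r n : ℕ} (hn : n < 27) (h : isTg r n = false) (v : I27 → F) : (N F r *ᵥ v) (dc n) = 0 := by
  rw [N_apply, cd_dc hn]
  apply sumTg_zero'
  intro x hx hxn
  simp only [isTg, List.any_eq_false, beq_iff_eq] at h
  exact h x hx hxn

theorem prod_zero {r a b : ℕ} (ha : a < 27) (hb : b < 27) (h : (isTg r a && isTg r b) = false) (v : I27 → F) :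
    (N F r *ᵥ v) (dc a) * (N F r *ᵥ v) (dc b) = 0 := by
  rw [Bool.and_eq_false_iff] at h
  rcases h with h | h
  · rw [N_zero ha h, zero_mul]
  · rw [N_zero hb h, mul_zero]

theorem D3_T3_N {r : ℕ} (h : oneTarget r = true) (v : I27 → F) :
    D3 (N F r *ᵥ v) v = 0 ∧ T3 (N F r *ᵥ v) = 0 := by
  simp only [oneTarget, List.all_eq_true] at h
  have key : ∀ L : List (ℤ × ℕ × ℕ × ℕ), (∀ τ ∈ L, τ ∈ triL) →
      D3L L (N F r *ᵥ v) v = 0 ∧ T3L L (N F r *ᵥ v) = 0 := by
    intro L hL
    induction L with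
    | nil => simp [D3L, T3L]
    | cons τ L ih =>
      have hτ := hL τ List.mem_cons_self
      obtain ⟨b1, b2, b3, -, -, -⟩ := bound_tri τ hτ
      obtain ⟨ih1, ih2⟩ := ih (fun σ hσ => hL σ (List.mem_cons_of_mem _ hσ))
      have h1 := h τ hτ
      simp only [Bool.and_eq_true, Bool.not_eq_true'] at h1
      obtain ⟨⟨c1, c2⟩, c3⟩ := h1
      have p1 := prod_zero b1 b2 c1 v
      have p2 := prod_zero b1 b3 c2 v
      have p3 := prod_zero b2 b3 c3 v
      simp only [D3L, T3L, List.map_cons, List.sum_cons] at ih1 ih2 ⊢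
      rw [ih1, ih2]
      constructor
      · rw [add_zero]
        generalize (N F r *ᵥ v) (dc τ.2.1) = A at p1 p2 ⊢
        generalize (N F r *ᵥ v) (dc τ.2.2.1) = B at p1 p3 ⊢
        generalize (N F r *ᵥ v) (dc τ.2.2.2) = C at p2 p3 ⊢
        linear_combination (τ.1 : F) * (v (dc τ.2.2.2) * p1 + v (dc τ.2.2.1) * p2 + v (dc τ.2.1) * p3)
      · rw [add_zero]
        generalize (N F r *ᵥ v) (dc τ.2.1) = A at p1 p2 ⊢
        generalize (N F r *ᵥ v) (dc τ.2.2.1) = B at p1 p3 ⊢
        generalize (N F r *ᵥ v) (dc τ.2.2.2) = C at p2 p3 ⊢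
        linear_combination (τ.1 : F) * C * p1
  exact key _ (fun τ hτ => hτ)

end Cfsg.Agent.Lib.CubicE6.Root
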