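import Cfsg.Agent.Lib.CubicE6.Pres

/-!
One stage of the reduction of an isometry of the cubic form: bringing the image of a coordinate vector onto its own line.
-/

set_option autoImplicit false
set_option linter.unusedSectionVars false
set_option linter.unusedVariables false

namespace Cfsg.Agent.Lib.CubicE6.Stage

open Cfsg.Lie Matrix Cfsg.Agent.Lib.CubicE6.Tab Cfsg.Agent.Lib.CubicE6.Form Cfsg.Agent.Lib.CubicE6.Root
open Cfsg.Agent.Lib.CubicE6.Pres
open scoped MatrixGroups

/-! ### Combinatorics of the coordinates -/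

/-- Two coordinates lying in no common monomial. -/
def skewB (p q : ℕ) : Bool := p != q && (ff p q).isEmpty

/-- The coordinate `n` is the third one of a monomial through `a` and `w`. -/
def isThird (a w n : ℕ) : Bool :=
  match ff a w with
  | [x] => x.2 == n && x.1 * x.1 == 1
  | _ => false

/-- The first exclusion. -/
def excl1 (A : List ℕ) (z n : ℕ) : Bool :=
  A.any fun a => (ff a z).isEmpty && (List.range 27).any fun w => isThird a w n

/-- The second exclusion. -/
def excl2 (A : List ℕ) (n : ℕ) : Bool :=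
  A.any fun a => A.any fun b => isThird a b n

/-- A root with all its sources outside `A`. -/
def allowedB (A : List ℕ) (r : ℕ) : Bool := (Nt r).all fun x => !A.contains x.2.1

/-- The root moving `p` to `q`. -/
def rootOf (p q : ℕ) : ℕ :=
  ((List.range 72).find? fun r => (Nt r).any fun x => x.1 == q && x.2.1 == p).getD 0

/-- The only entry of the root `r` with target `q` has source `p`. -/
def tgtIs (r q p : ℕ) : Bool :=
  match (Nt r).filter (fun x => x.1 = q) with
  | [x] => x.2.1 == p && x.2.2 * x.2.2 == 1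
  | _ => false

/-- Reachability through admissible roots. -/
def reachB (A : List ℕ) (z : ℕ) : ℕ → ℕ → Bool
  | 0, w => w == z
  | k + 1, w => w == z || (List.range 27).any fun w₁ =>
      skewB w w₁ && tgtIs (rootOf w w₁) w₁ w && rootOf w w₁ < 72 && allowedB A (rootOf w w₁) && reachB A z k w₁

/-- The condition of a stage. -/
def stageB (A : List ℕ) (z : ℕ) (sp : List ℕ) : Bool :=
  excl2 A z || (List.range 27).all fun n =>
    A.contains n || n == z || sp.contains n || excl1 A z n || excl2 A n || reachB A z 3 n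

/-- The properties of the root moving `z` to `w`. -/
def betaFact (z w : ℕ) : Bool :=
  rootOf z w < 72 && tgtIs (rootOf z w) w z && (Nt (rootOf z w)).all fun x =>
    x.1 != z && (x.1 == w || !skewB z x.1) && (x.2.1 == z || ((ff x.2.1 z).isEmpty && (List.range 27).any fun w' => isThird x.2.1 w' w))

theorem beta_table : ∀ z w : Fin 27, skewB z.val w.val = true → betaFact z.val w.val = true := by decide +kernel

/-- A term of the derivative at a monomial through `z` and `n`. -/
def isPair (z n : ℕ) (x : ℤ × ℕ × ℕ) : Bool := (x.2.1 == z && x.2.2 == n) || (x.2.1 == n && x.2.2 == z)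

/-- The coefficient of the pair. -/
def pairCoef (z n : ℕ) (L : List (ℤ × ℕ × ℕ)) : ℤ := (L.map fun x => if isPair z n x then x.1 else 0).sum

/-- The derivative with respect to `w'` is a multiple of the product of the coordinates `z` and `n`, if the coordinates
skew to `z` vanish. -/
def gammaOK (z n w' : ℕ) : Bool :=
  (dd w').all (fun x => isPair z n x || skewB z x.2.1 || skewB z x.2.2) && pairCoef z n (dd w') * pairCoef z n (dd w') == 1

theorem gamma_table : ∀ z n : Fin 27, n ≠ z → skewB z.val n.val = false →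
    (List.range 27).any (fun w' => gammaOK z.val n.val w') = true := by decide +kernel

variable {F : Type*} [Field F]

/-! ### Formulas -/

theorem sumTg_filter (L : List (ℕ × ℕ × ℤ)) (n : ℕ) (v : I27 → F) :
    sumTg L n v = ((L.filter fun x => x.1 = n).map fun x => (x.2.2 : F) * v (dc x.2.1)).sum := by
  induction L with
  | nil => simp [sumTg]
  | cons x L ih =>
    simp only [sumTg, List.map_cons, List.sum_cons] at ih ⊢
    rw [ih]
    by_cases c : x.1 = n <;> simp [List.filter_cons, c]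

theorem tgtIs_spec {r q p : ℕ} (h : tgtIs r q p = true) : ∃ ε : ℤ, ε * ε = 1 ∧ ∀ v : I27 → F, sumTg (Nt r) q v = (ε : F) * v (dc p) := by
  unfold tgtIs at h
  split at h
  · rename_i x hx
    simp only [Bool.and_eq_true, beq_iff_eq] at h
    refine ⟨x.2.2, h.2, fun v => ?_⟩
    rw [sumTg_filter, hx]
    simp [h.1]
  · simp at h

theorem sumTg_zero {L : List (ℕ × ℕ × ℤ)} {n : ℕ} (h : ∀ x ∈ L, x.1 ≠ n) (v : I27 → F) : sumTg L n v = 0 := by
  unfold sumTg
  apply List.sum_eq_zero
  intro y hy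
  obtain ⟨x, hx, rfl⟩ := List.mem_map.mp hy
  rw [if_neg (h x hx)]

theorem cast_ne_zero_of_sq {c : ℤ} (h : c * c = 1) : (c : F) ≠ 0 := by
  intro h0
  have : ((c * c : ℤ) : F) = 1 := by rw [h]; simp
  push_cast at this
  rw [h0, mul_zero] at this
  exact zero_ne_one this

theorem isThird_spec {a w n : ℕ} (h : isThird a w n = true) : ∃ c : ℤ, c * c = 1 ∧ ∀ x : I27 → F, sumL (ff a w) x = (c : F) * x (dc n) := by
  unfold isThird at h
  split at h
  · rename_i x hx
    simp only [Bool.and_eq_true, beq_iff_eq] at h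
    refine ⟨x.1, h.2, fun v => ?_⟩
    rw [hx]
    simp [sumL, h.1]
  · simp at h

theorem bound_ff : ∀ b : Fin 27, ∀ a : Fin 27, ∀ x ∈ ff a.val b.val, x.2 < 27 := by decide +kernel

theorem isThird_lt {a w n : ℕ} (ha : a < 27) (hw : w < 27) (h : isThird a w n = true) : n < 27 := by
  unfold isThird at h
  split at h
  · rename_i x hx
    simp only [Bool.and_eq_true, beq_iff_eq] at h
    rw [← h.1]
    exact bound_ff ⟨w, hw⟩ ⟨a, ha⟩ x (by rw [hx]; simp)
  · simp at h

/-! ### Isometries and lines -/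

/-- Isometries stabilising the lines of a list. -/
def Good (A : List ℕ) (g : GL I27 F) : Prop := ∀ a ∈ A, ∃ d : F, d ≠ 0 ∧ act g (e a) = d • e a

/-- Elements fixing the vectors of a list. -/
def Fx (A : List ℕ) (x : GL I27 F) : Prop := ∀ a ∈ A, act x (e a) = (e a : I27 → F)

theorem Fx.mul {A : List ℕ} {x y : GL I27 F} (hx : Fx A x) (hy : Fx A y) : Fx A (x * y) := by
  intro a ha
  rw [act_mul, hy a ha, hx a ha]

theorem Fx.one (A : List ℕ) : Fx A (1 : GL I27 F) := fun a _ => act_one _

theorem Good.mul {A : List ℕ} {x g : GL I27 F} (hx : Fx A x) (hg : Good A g) : Good A (x * g) := by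
  intro a ha
  obtain ⟨d, hd, h⟩ := hg a ha
  refine ⟨d, hd, ?_⟩
  rw [act_mul, h, act_smul, hx a ha]

/-- The subgroup generated by root elements. -/
def S (F : Type*) [Field F] : Subgroup (GL I27 F) := Subgroup.closure {g | ∃ r, r < 72 ∧ ∃ t : F, g = X r t}

theorem X_mem_S {r : ℕ} (hr : r < 72) (t : F) : X r t ∈ S F := Subgroup.subset_closure ⟨r, hr, t, rfl⟩

theorem S_le : S F ≤ E6univ F := by
  rw [S, Subgroup.closure_le]
  rintro g ⟨r, _, t, rfl⟩
  exact X_mem r t

theorem X_fix {A : List ℕ} {r : ℕ} (h : allowedB A r = true) (t : F) : Fx A (X r t) := by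
  intro a ha
  rw [act_X]
  have : (N F r *ᵥ (e a : I27 → F)) = 0 := by
    funext u
    rw [N_apply, Pi.zero_apply]
    unfold sumTg
    apply List.sum_eq_zero
    intro y hy
    obtain ⟨x, hx, rfl⟩ := List.mem_map.mp hy
    have h1 : x.2.1 < 27 := (bound_Nt r x hx).2
    rw [e_dc h1]
    have h2 : x.2.1 ≠ a := by
      intro h3
      simp only [allowedB, List.all_eq_true] at h
      have := h x hx
      rw [h3] at this
      simp [ha] at this
    simp [h2]
  rw [this]
  simp

section Main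

variable (hF : ∃ c : F, c ≠ 0 ∧ c ≠ 1)

include hF

/-- First exclusion. -/
theorem supp1 {g : GL I27 F} (hg : g ∈ E6univ F) {a z : ℕ} {d : F} (hd0 : d ≠ 0) (hd : act g (e a) = d • e a) (hz : z < 27)
    (hs : ff a z = []) {w n : ℕ} (hw : w < 27) (ht : isThird a w n = true) : act g (e z) (dc n) = 0 := by
  obtain ⟨c, hc, hc'⟩ := isThird_spec (F := F) ht
  have h1 : f3 (act g (e a)) (act g (e z)) (act g (act g⁻¹ (e w))) = f3 (e a) (e z) (act g⁻¹ (e w)) := f3_act hg hF _ _ _
  rw [act_act_inv, f3_ee' a z hz, hs, hd, f3_smul_left, f3_ee a w hw, hc'] at h1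
  simp only [sumL, List.map_nil, List.sum_nil] at h1
  have h2 := (mul_eq_zero.mp h1).resolve_left hd0
  exact (mul_eq_zero.mp h2).resolve_left (cast_ne_zero_of_sq hc)

/-- Second exclusion. -/
theorem supp2 {g : GL I27 F} (hg : g ∈ E6univ F) {a b z n : ℕ} {d d' : F} (hd0 : d ≠ 0) (hd0' : d' ≠ 0)
    (hd : act g (e a) = d • e a) (hd' : act g (e b) = d' • e b) (hb : b < 27)
    (hn : n < 27) (ht : isThird a b n = true) : d * d' * act g (e z) (dc n) = if n = z then 1 else 0 := by
  obtain ⟨c, hc, hc'⟩ := isThird_spec (F := F) ht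
  have h1 : f3 (act g (e a)) (act g (e b)) (act g (e z)) = f3 (e a) (e b) (e z) := f3_act hg hF _ _ _
  rw [hd, hd', f3_smul_left, f3_swap12, f3_smul_left, f3_swap12, f3_ee' a b hb, f3_ee' a b hb, hc', hc', e_dc hn] at h1
  have h2 : (c : F) ≠ 0 := cast_ne_zero_of_sq hc
  apply mul_left_cancel₀ h2
  rw [← h1]
  ring

/-- Images of coordinate vectors are white. -/
theorem white {g : GL I27 F} (hg : g ∈ E6univ F) (z w : ℕ) : sumD (dd w) (act g (e z)) = 0 := by
  rw [← D3_e]
  have h1 : D3 (act g (e z)) (act g (act g⁻¹ (e w))) = D3 (e z) (act g⁻¹ (e w)) := D3_act hg hF _ _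
  rw [act_act_inv, D3_e_left] at h1
  exact h1

end Main

/-- An isometry stabilising lines: the image of a vector with a coordinate outside the list has a coordinate outside
the list. -/
theorem outside {A : List ℕ} {g : GL I27 F} (hG : Good A g) (y : I27 → F) (h : ∀ n, n < 27 → n ∉ A → act g y (dc n) = 0)
    {n : ℕ} (hn : n < 27) (hnA : n ∉ A) : y (dc n) = 0 := by
  have e1 : y (dc n) = act g⁻¹ (act g y) (dc n) := by rw [act_inv_act]
  rw [e1]
  show ∑ u, ((g⁻¹ : GL I27 F) : Matrix I27 I27 F) (dc n) u * act g y u = 0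
  apply Finset.sum_eq_zero
  intro u _
  by_cases hu : cd u ∈ A
  · obtain ⟨d, hd0, hd⟩ := hG _ hu
    have h2 : act g⁻¹ (e (cd u)) = d⁻¹ • (e (cd u) : I27 → F) := by
      have h3 := act_inv_act g (e (cd u) : I27 → F)
      rw [hd, act_smul] at h3
      rw [← h3, smul_smul, inv_mul_cancel₀ hd0, one_smul, h3]
    have h4 : ((g⁻¹ : GL I27 F) : Matrix I27 I27 F) (dc n) u = act g⁻¹ (e (cd u) : I27 → F) (dc n) := by
      rw [e_cd]
      simp [act, Matrix.mulVec_single_one]
    have hne : n ≠ cd u := fun c => hnA (by rw [c]; exact hu)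
    rw [h4, h2, Pi.smul_apply, e_dc hn, if_neg hne]
    simp
  · have : act g y u = 0 := by
      have h5 := h (cd u) (cd_lt u) hu
      rwa [dc_cd] at h5
    rw [this, mul_zero]

/-! ### Moving a coordinate to a given position -/

/-- Moving a non-zero coordinate along a root. -/
theorem hop {A : List ℕ} {p q : ℕ} (hq : q < 27) (hr : rootOf p q < 72) (ht : tgtIs (rootOf p q) q p = true)
    (ha : allowedB A (rootOf p q) = true) (v : I27 → F) (hv : v (dc p) ≠ 0) :
    ∃ x ∈ S F, Fx A x ∧ act x v (dc q) ≠ 0 := by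
  obtain ⟨ε, hε, hs⟩ := tgtIs_spec (F := F) ht
  by_cases h0 : v (dc q) = 0
  · refine ⟨X (rootOf p q) 1, X_mem_S hr 1, X_fix ha 1, ?_⟩
    rw [act_X_dc _ _ _ hq, hs, h0]
    simp only [zero_add, one_mul]
    exact mul_ne_zero (cast_ne_zero_of_sq hε) hv
  · exact ⟨1, Subgroup.one_mem _, Fx.one A, by rwa [act_one]⟩

theorem reach_lemma {A : List ℕ} {z : ℕ} (k : ℕ) : ∀ (w : ℕ) (v : I27 → F), reachB A z k w = true → v (dc w) ≠ 0 →
    ∃ x ∈ S F, Fx A x ∧ act x v (dc z) ≠ 0 := by
  induction k with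
  | zero =>
    intro w v h hv
    simp only [reachB, beq_iff_eq] at h
    subst h
    exact ⟨1, Subgroup.one_mem _, Fx.one A, by rwa [act_one]⟩
  | succ k ih =>
    intro w v h hv
    simp only [reachB, Bool.or_eq_true, beq_iff_eq, List.any_eq_true, Bool.and_eq_true, decide_eq_true_eq,
      List.mem_range] at h
    rcases h with rfl | ⟨w₁, hw₁, ⟨⟨⟨hsk, ht⟩, hr⟩, ha⟩, hk⟩
    · exact ⟨1, Subgroup.one_mem _, Fx.one A, by rwa [act_one]⟩
    · obtain ⟨x, hx, hxf, hxv⟩ := hop hw₁ hr ht ha v hv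
      obtain ⟨x', hx', hxf', hxv'⟩ := ih w₁ (act x v) hk hxv
      refine ⟨x' * x, Subgroup.mul_mem _ hx' hx, hxf'.mul hxf, ?_⟩
      rwa [act_mul]

/-! ### Clearing the coordinates skew to `z` -/

section Beta

variable (hF : ∃ c : F, c ≠ 0 ∧ c ≠ 1)

include hF

theorem beta_step {A : List ℕ} {z w : ℕ} {g : GL I27 F} (hg : g ∈ E6univ F) (hG : Good A g) (hzA : z ∉ A) (hz : z < 27)
    (hw : w < 27) (hsk : skewB z w = true) (hv : act g (e z) (dc z) ≠ 0) :
    ∃ x ∈ S F, Fx A x ∧ act x (act g (e z)) (dc z) = act g (e z) (dc z) ∧ act x (act g (e z)) (dc w) = 0 ∧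
      ∀ n, n < 27 → skewB z n = true → n ≠ w → act x (act g (e z)) (dc n) = act g (e z) (dc n) := by
  have hfact := beta_table ⟨z, hz⟩ ⟨w, hw⟩ hsk
  simp only [betaFact, Bool.and_eq_true, decide_eq_true_eq, List.all_eq_true, bne_iff_ne, ne_eq, Bool.or_eq_true, beq_iff_eq,
    Bool.not_eq_true', List.any_eq_true, List.mem_range, List.isEmpty_iff] at hfact
  obtain ⟨⟨hr, ht⟩, hall⟩ := hfact
  set v := act g (e z) with hvdef
  by_cases ha : allowedB A (rootOf z w) = true
  · obtain ⟨ε, hε, hs⟩ := tgtIs_spec (F := F) ht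
    have hε0 : (ε : F) ≠ 0 := cast_ne_zero_of_sq hε
    refine ⟨X (rootOf z w) (- v (dc w) / ((ε : F) * v (dc z))), X_mem_S hr _, X_fix ha _, ?_, ?_, ?_⟩
    · rw [act_X_dc _ _ _ hz, sumTg_zero (fun x hx => (hall x hx).1.1)]
      simp
    · rw [act_X_dc _ _ _ hw, hs]
      field_simp
      ring
    · intro n hn hsn hnw
      rw [act_X_dc _ _ _ hn, sumTg_zero]
      · simp
      · intro x hx hxn
        have := (hall x hx).1.2
        rcases this with c | c
        · exact hnw (hxn.symm.trans c)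
        · rw [hxn, hsn] at c
          simp at c
  · have : ∃ x ∈ Nt (rootOf z w), x.2.1 ∈ A := by
      by_contra hc
      push Not at hc
      apply ha
      simp only [allowedB, List.all_eq_true]
      intro x hx
      simp [hc x hx]
    obtain ⟨x, hx, hxA⟩ := this
    have hxz : x.2.1 ≠ z := fun c => hzA (c ▸ hxA)
    obtain ⟨h1, w', hw', ht'⟩ := (hall x hx).2.resolve_left hxz
    obtain ⟨d, hd0, hd⟩ := hG _ hxA
    have hv0 : v (dc w) = 0 := supp1 hF hg hd0 hd hz h1 hw' ht'
    refine ⟨1, Subgroup.one_mem _, Fx.one A, ?_, ?_, ?_⟩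
    · rw [act_one]
    · rw [act_one, hv0]
    · intro n _ _ _
      rw [act_one]

theorem beta_list {A : List ℕ} {z : ℕ} (hzA : z ∉ A) (hz : z < 27) (ws : List ℕ) (hws : ∀ w ∈ ws, w < 27 ∧ skewB z w = true)
    {g : GL I27 F} (hg : g ∈ E6univ F) (hG : Good A g) (hv : act g (e z) (dc z) ≠ 0) :
    ∃ x ∈ S F, Fx A x ∧ act (x * g) (e z) (dc z) ≠ 0 ∧ ∀ w ∈ ws, act (x * g) (e z) (dc w) = 0 := by
  induction ws with
  | nil => exact ⟨1, Subgroup.one_mem _, Fx.one A, by rwa [one_mul], by simp⟩
  | cons w ws ih =>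
    obtain ⟨x, hx, hxf, h1, h2⟩ := ih (fun u hu => hws u (List.mem_cons_of_mem _ hu))
    have hg1 : x * g ∈ E6univ F := Subgroup.mul_mem _ (S_le hx) hg
    have hG1 : Good A (x * g) := Good.mul hxf hG
    obtain ⟨hw, hsk⟩ := hws w List.mem_cons_self
    obtain ⟨y, hy, hyf, h3, h4, h5⟩ := beta_step hF hg1 hG1 hzA hz hw hsk h1
    refine ⟨y * x, Subgroup.mul_mem _ hy hx, hyf.mul hxf, ?_, ?_⟩
    · rw [mul_assoc, act_mul, h3]
      exact h1
    · intro u hu
      rw [mul_assoc, act_mul]
      rcases List.mem_cons.mp hu with rfl | hu'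
      · exact h4
      · by_cases c : u = w
        · rw [c]
          exact h4
        · obtain ⟨hu1, hu2⟩ := hws u hu
          rw [h5 u hu1 hu2 c]
          exact h2 u hu'

end Beta

end Cfsg.Agent.Lib.CubicE6.Stage
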