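import Cfsg.Agent.Lib.CubicE6.Stage

/-!
Every isometry of the cubic form is a product of root elements and of a diagonal isometry.
-/

set_option autoImplicit false
set_option linter.unusedSectionVars false
set_option linter.unusedVariables false

namespace Cfsg.Agent.Lib.CubicE6.Stage2

open Cfsg.Lie Matrix Cfsg.Agent.Lib.CubicE6.Tab Cfsg.Agent.Lib.CubicE6.Form Cfsg.Agent.Lib.CubicE6.Root
open Cfsg.Agent.Lib.CubicE6.Pres Cfsg.Agent.Lib.CubicE6.Stage
open scoped MatrixGroups

variable {F : Type*} [Field F]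

/-! ### Formulas for the derivative when many coordinates vanish -/

theorem sumD_pair (p q : ℕ) (van : ℕ → Bool) (x : I27 → F) (L : List (ℤ × ℕ × ℕ))
    (hb : ∀ y ∈ L, y.2.1 < 27 ∧ y.2.2 < 27)
    (hv : ∀ m, m < 27 → van m = true → x (dc m) = 0)
    (hL : ∀ y ∈ L, isPair p q y = true ∨ van y.2.1 = true ∨ van y.2.2 = true) :
    sumD L x = (pairCoef p q L : F) * (x (dc p) * x (dc q)) := by
  induction L with
  | nil => simp [sumD, pairCoef]
  | cons y L ih =>
    have ih' := ih (fun u hu => hb u (List.mem_cons_of_mem _ hu)) (fun u hu => hL u (List.mem_cons_of_mem _ hu))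
    obtain ⟨b1, b2⟩ := hb y List.mem_cons_self
    have e1 : sumD (y :: L) x = (y.1 : F) * (x (dc y.2.1) * x (dc y.2.2)) + sumD L x := by simp [sumD]
    have e2 : pairCoef p q (y :: L) = (if isPair p q y then y.1 else 0) + pairCoef p q L := by simp [pairCoef]
    rw [e1, e2, ih']
    push_cast
    by_cases hp : isPair p q y = true
    · rw [if_pos hp]
      simp only [isPair, Bool.or_eq_true, Bool.and_eq_true, beq_iff_eq] at hp
      rcases hp with ⟨c1, c2⟩ | ⟨c1, c2⟩
      · rw [c1, c2]
        ring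
      · rw [c1, c2]
        ring
    · rw [if_neg hp]
      have h3 := (hL y List.mem_cons_self).resolve_left hp
      rcases h3 with h3 | h3
      · rw [hv _ b1 h3]
        simp
      · rw [hv _ b2 h3]
        simp

theorem sumF_pair (p q : ℕ) (van : ℕ → Bool) (x x' : I27 → F) (L : List (ℤ × ℕ × ℕ))
    (hb : ∀ y ∈ L, y.2.1 < 27 ∧ y.2.2 < 27)
    (hv : ∀ m, m < 27 → van m = true → x (dc m) = 0)
    (hv' : ∀ m, m < 27 → van m = true → x' (dc m) = 0)
    (hL : ∀ y ∈ L, isPair p q y = true ∨ van y.2.1 = true ∨ van y.2.2 = true) :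
    sumF L x x' = (pairCoef p q L : F) * (x (dc p) * x' (dc q) + x' (dc p) * x (dc q)) := by
  induction L with
  | nil => simp [sumF, pairCoef]
  | cons y L ih =>
    have ih' := ih (fun u hu => hb u (List.mem_cons_of_mem _ hu)) (fun u hu => hL u (List.mem_cons_of_mem _ hu))
    obtain ⟨b1, b2⟩ := hb y List.mem_cons_self
    have e1 : sumF (y :: L) x x' = (y.1 : F) * (x (dc y.2.1) * x' (dc y.2.2) + x' (dc y.2.1) * x (dc y.2.2)) + sumF L x x' := by
      simp [sumF]
    have e2 : pairCoef p q (y :: L) = (if isPair p q y then y.1 else 0) + pairCoef p q L := by simp [pairCoef]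
    rw [e1, e2, ih']
    push_cast
    by_cases hp : isPair p q y = true
    · rw [if_pos hp]
      simp only [isPair, Bool.or_eq_true, Bool.and_eq_true, beq_iff_eq] at hp
      rcases hp with ⟨c1, c2⟩ | ⟨c1, c2⟩
      · rw [c1, c2]
        ring
      · rw [c1, c2]
        ring
    · rw [if_neg hp]
      have h3 := (hL y List.mem_cons_self).resolve_left hp
      rcases h3 with h3 | h3
      · rw [hv _ b1 h3, hv' _ b1 h3]
        simp
      · rw [hv _ b2 h3, hv' _ b2 h3]
        simp

theorem bound_dd' {w : ℕ} (hw : w < 27) : ∀ y ∈ dd w, y.2.1 < 27 ∧ y.2.2 < 27 := bound_dd ⟨w, hw⟩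

/-- The table of all the stages. -/
theorem stage_table : (List.range 27).all (fun k => stageB (ord.take k) (ord.getD k 0) (if k = 4 then [20] else [])) = true := by
  decide +kernel

section Main

variable (hF : ∃ c : F, c ≠ 0 ∧ c ≠ 1)

include hF

/-- If the coordinates skew to `z` vanish and the coordinate `z` does not, then the image of `e z` is on the line of `z`. -/
theorem line_of {g : GL I27 F} (hg : g ∈ E6univ F) {z : ℕ} (hz : z < 27) (hv0 : act g (e z) (dc z) ≠ 0)
    (hv : ∀ m, m < 27 → skewB z m = true → act g (e z) (dc m) = 0) :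
    act g (e z) = act g (e z) (dc z) • e z := by
  have key : ∀ n, n < 27 → n ≠ z → act g (e z) (dc n) = 0 := by
    intro n hn hnz
    by_cases hs : skewB z n = true
    · exact hv n hn hs
    · have h1 := gamma_table ⟨z, hz⟩ ⟨n, hn⟩ (fun c => hnz (congrArg Fin.val c)) (by simpa using hs)
      simp only [List.any_eq_true, List.mem_range] at h1
      obtain ⟨w, hw, h2⟩ := h1
      simp only [gammaOK, Bool.and_eq_true, List.all_eq_true, Bool.or_eq_true, beq_iff_eq] at h2
      obtain ⟨h3, h4⟩ := h2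
      have h5 := white hF hg z w
      rw [sumD_pair z n (skewB z) _ _ (bound_dd' hw) hv (fun y hy => by
        rcases h3 y hy with (h | h) | h
        · exact Or.inl h
        · exact Or.inr (Or.inl h)
        · exact Or.inr (Or.inr h))] at h5
      have h6 := (mul_eq_zero.mp h5).resolve_left (cast_ne_zero_of_sq h4)
      exact (mul_eq_zero.mp h6).resolve_left hv0
  funext u
  have hu : u = dc (cd u) := (dc_cd u).symm
  rw [hu, Pi.smul_apply, e_dc (cd_lt u)]
  by_cases c : cd u = z
  · rw [c]
    simp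
  · rw [if_neg c, key _ (cd_lt u) c]
    simp

theorem excl1_zero {A : List ℕ} {g : GL I27 F} (hg : g ∈ E6univ F) (hG : Good A g) {z n : ℕ} (hz : z < 27)
    (h : excl1 A z n = true) : act g (e z) (dc n) = 0 := by
  simp only [excl1, List.any_eq_true, Bool.and_eq_true, List.isEmpty_iff, List.mem_range] at h
  obtain ⟨a, ha, h1, w, hw, h2⟩ := h
  obtain ⟨d, hd0, hd⟩ := hG a ha
  exact supp1 hF hg hd0 hd hz h1 hw h2

/-- One stage. -/
theorem stage {A : List ℕ} {z : ℕ} {sp : List ℕ} (hst : stageB A z sp = true) (hzA : z ∉ A) (hz : z < 27)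
    (hA : ∀ a ∈ A, a < 27) {g : GL I27 F} (hg : g ∈ E6univ F) (hG : Good A g)
    (hsp : ∀ n ∈ sp, act g (e z) (dc n) = 0) : ∃ x ∈ S F, Good (z :: A) (x * g) := by
  -- the second exclusion
  have ex2 : ∀ n, n < 27 → excl2 A n = true → (n = z → act g (e z) (dc z) ≠ 0) ∧ (n ≠ z → act g (e z) (dc n) = 0) := by
    intro n hn h
    simp only [excl2, List.any_eq_true] at h
    obtain ⟨a, ha, b, hb, h1⟩ := h
    obtain ⟨d, hd0, hd⟩ := hG a ha
    obtain ⟨d', hd0', hd'⟩ := hG b hb
    have h2 := supp2 (z := z) hF hg hd0 hd0' hd hd' (hA b hb) hn h1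
    constructor
    · intro hnz hzero
      rw [if_pos hnz, hnz, hzero, mul_zero] at h2
      exact zero_ne_one h2
    · intro hnz
      rw [if_neg hnz] at h2
      exact (mul_eq_zero.mp h2).resolve_left (mul_ne_zero hd0 hd0')
  -- moving a coordinate to `z`
  have hα : ∃ x ∈ S F, Fx A x ∧ act x (act g (e z)) (dc z) ≠ 0 := by
    simp only [stageB, Bool.or_eq_true, List.all_eq_true, List.mem_range, List.contains_iff_mem, beq_iff_eq] at hst
    rcases hst with h | h
    · exact ⟨1, Subgroup.one_mem _, Fx.one A, by rw [act_one]; exact (ex2 z hz h).1 rfl⟩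
    · have hex : ∃ n, n < 27 ∧ n ∉ A ∧ act g (e z) (dc n) ≠ 0 := by
        by_contra hc
        push Not at hc
        have h1 := outside hG (e z : I27 → F) (fun n hn hnA => hc n hn hnA) hz hzA
        rw [e_dc hz, if_pos rfl] at h1
        exact one_ne_zero h1
      obtain ⟨n, hn, hnA, hnv⟩ := hex
      by_cases hnz : n = z
      · exact ⟨1, Subgroup.one_mem _, Fx.one A, by rw [act_one]; rwa [hnz] at hnv⟩
      rcases h n hn with (((((h1 | h1) | h1) | h1) | h1) | h1)
      · exact absurd h1 hnA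
      · exact absurd h1 hnz
      · exact absurd (hsp n h1) hnv
      · exact absurd (excl1_zero hF hg hG hz h1) hnv
      · exact absurd ((ex2 n hn h1).2 hnz) hnv
      · exact reach_lemma 3 n _ h1 hnv
  obtain ⟨x₁, hx₁, hf₁, hv₁⟩ := hα
  have hg₁ : x₁ * g ∈ E6univ F := Subgroup.mul_mem _ (S_le hx₁) hg
  have hG₁ : Good A (x₁ * g) := Good.mul hf₁ hG
  have hv₁' : act (x₁ * g) (e z) (dc z) ≠ 0 := by rwa [act_mul]
  obtain ⟨x₂, hx₂, hf₂, hv₂, hc₂⟩ := beta_list hF hzA hz ((List.range 27).filter (skewB z))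
    (fun w hw => by
      rw [List.mem_filter, List.mem_range] at hw
      exact hw) hg₁ hG₁ hv₁'
  have hg₂ : x₂ * (x₁ * g) ∈ E6univ F := Subgroup.mul_mem _ (S_le hx₂) hg₁
  have hline := line_of hF hg₂ hz hv₂ (fun m hm hs => hc₂ m (by
    rw [List.mem_filter, List.mem_range]
    exact ⟨hm, hs⟩))
  refine ⟨x₂ * x₁, Subgroup.mul_mem _ hx₂ hx₁, ?_⟩
  rw [mul_assoc]
  intro a ha
  rcases List.mem_cons.mp ha with rfl | ha'
  · exact ⟨_, hv₂, hline⟩
  · exact Good.mul hf₂ hG₁ a ha'

/-- The special stage. -/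
theorem special {g : GL I27 F} (hg : g ∈ E6univ F) (hG : Good [0, 1, 2, 19] g) : act g (e 22) (dc 20) = 0 := by
  by_contra hv
  set v := act g (e 22) with hvd
  set v' := act g (e 25) with hvd'
  -- the vanishing set
  let van : ℕ → Bool := fun n => excl1 [0, 1, 2, 19] 22 n && excl1 [0, 1, 2, 19] 25 n
  have hvan : ∀ m, m < 27 → van m = true → v (dc m) = 0 := by
    intro m _ h
    simp only [van, Bool.and_eq_true] at h
    exact excl1_zero hF hg hG (by norm_num) h.1
  have hvan' : ∀ m, m < 27 → van m = true → v' (dc m) = 0 := by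
    intro m _ h
    simp only [van, Bool.and_eq_true] at h
    exact excl1_zero hF hg hG (by norm_num) h.2
  have hS7 : ∀ n : Fin 27, van n.val = true ∨ n.val ∈ [0, 1, 2, 19, 20, 22, 25] := by decide +kernel
  have t24 : ∀ y ∈ dd 24, isPair 22 20 y = true ∨ van y.2.1 = true ∨ van y.2.2 = true := by decide +kernel
  have t21 : ∀ y ∈ dd 21, isPair 25 20 y = true ∨ van y.2.1 = true ∨ van y.2.2 = true := by decide +kernel
  have c24 : pairCoef 22 20 (dd 24) * pairCoef 22 20 (dd 24) = 1 := by decide +kernel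
  have c21 : pairCoef 25 20 (dd 21) * pairCoef 25 20 (dd 21) = 1 := by decide +kernel
  have c24' := cast_ne_zero_of_sq (F := F) c24
  have c21' := cast_ne_zero_of_sq (F := F) c21
  -- whiteness
  have w1 := white hF hg 22 24
  rw [sumD_pair 22 20 van _ _ (bound_dd' (by norm_num)) hvan t24] at w1
  have v22 : v (dc 22) = 0 := (mul_eq_zero.mp ((mul_eq_zero.mp w1).resolve_left c24')).resolve_right hv
  have w2 := white hF hg 22 21
  rw [sumD_pair 25 20 van _ _ (bound_dd' (by norm_num)) hvan t21] at w2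
  have v25 : v (dc 25) = 0 := (mul_eq_zero.mp ((mul_eq_zero.mp w2).resolve_left c21')).resolve_right hv
  -- polarity
  have hskew : ff 22 25 = [] := by decide +kernel
  have pol : ∀ w : ℕ, sumF (dd w) v v' = 0 := by
    intro w
    rw [← f3_e]
    have h1 : f3 (act g (e 22)) (act g (e 25)) (act g (act g⁻¹ (e w))) = f3 (e 22) (e 25) (act g⁻¹ (e w)) := f3_act hg hF _ _ _
    rw [act_act_inv, f3_ee' 22 25 (by norm_num), hskew] at h1
    simpa [sumL] using h1
  have p1 := pol 24
  rw [sumF_pair 22 20 van _ _ _ (bound_dd' (by norm_num)) hvan hvan' t24, v22] at p1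
  have v'22 : v' (dc 22) = 0 := by
    have := (mul_eq_zero.mp p1).resolve_left c24'
    rw [zero_mul, zero_add] at this
    exact (mul_eq_zero.mp this).resolve_right hv
  have p2 := pol 21
  rw [sumF_pair 25 20 van _ _ _ (bound_dd' (by norm_num)) hvan hvan' t21, v25] at p2
  have v'25 : v' (dc 25) = 0 := by
    have := (mul_eq_zero.mp p2).resolve_left c21'
    rw [zero_mul, zero_add] at this
    exact (mul_eq_zero.mp this).resolve_right hv
  -- the linear dependence
  have hout := outside hG (v' (dc 20) • e 22 - v (dc 20) • e 25 : I27 → F) (fun n hn hnA => by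
    have e1 : act g (v' (dc 20) • e 22 - v (dc 20) • e 25) = v' (dc 20) • v - v (dc 20) • v' := by
      rw [sub_eq_add_neg, ← neg_smul, act_add, act_smul, act_smul, neg_smul, sub_eq_add_neg]
    rw [e1]
    simp only [Pi.sub_apply, Pi.smul_apply, smul_eq_mul]
    rcases hS7 ⟨n, hn⟩ with h | h
    · rw [hvan n hn h, hvan' n hn h]
      ring
    · simp only [List.mem_cons, List.mem_singleton, List.not_mem_nil, or_false] at h hnA
      have h20 : n = 20 ∨ n = 22 ∨ n = 25 := by omega
      rcases h20 with rfl | rfl | rfl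
      · ring
      · rw [v22, v'22]
        ring
      · rw [v25, v'25]
        ring)
    (n := 25) (by norm_num) (by decide)
  simp only [Pi.sub_apply, Pi.smul_apply, smul_eq_mul] at hout
  rw [e_dc (by norm_num), e_dc (by norm_num)] at hout
  simp only [show ¬ ((25 : ℕ) = 22) by norm_num, if_false, if_true, mul_zero, mul_one, zero_sub, neg_eq_zero] at hout
  exact hv hout

theorem reduce_all {g : GL I27 F} (hg : g ∈ E6univ F) : ∀ k, k ≤ 27 → ∃ x ∈ S F, Good (ord.take k) (x * g) := by
  intro k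
  induction k with
  | zero =>
    intro _
    exact ⟨1, Subgroup.one_mem _, by simp [Good]⟩
  | succ k ih =>
    intro hk
    obtain ⟨x, hx, hG⟩ := ih (by omega)
    have hk' : k < 27 := by omega
    have h1 : ∀ k : Fin 27, ord.getD k.val 0 ∉ ord.take k.val ∧ ord.getD k.val 0 < 27 ∧ (∀ a ∈ ord.take k.val, a < 27) ∧
        ∀ a ∈ ord.take (k.val + 1), a = ord.getD k.val 0 ∨ a ∈ ord.take k.val := by decide +kernel
    obtain ⟨h2, h3, h4, h5⟩ := h1 ⟨k, hk'⟩
    have h6 := List.all_eq_true.mp stage_table k (List.mem_range.mpr hk')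
    have hg' : x * g ∈ E6univ F := Subgroup.mul_mem _ (S_le hx) hg
    have hsp : ∀ n ∈ (if k = 4 then [20] else []), act (x * g) (e (ord.getD k 0)) (dc n) = 0 := by
      intro n hn
      by_cases c : k = 4
      · subst c
        rw [if_pos rfl] at hn
        rw [List.mem_singleton] at hn
        subst hn
        exact special hF hg' hG
      · rw [if_neg c] at hn
        simp at hn
    obtain ⟨y, hy, hG'⟩ := stage hF h6 h2 h3 h4 hg' hG hsp
    refine ⟨y * x, Subgroup.mul_mem _ hy hx, ?_⟩
    rw [mul_assoc]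
    intro a ha
    exact hG' a (List.mem_cons.mpr (h5 a ha))

/-- Every isometry is, up to root elements, diagonal. -/
theorem reduce {g : GL I27 F} (hg : g ∈ E6univ F) : ∃ x ∈ S F, ∀ n, n < 27 → ∃ d : F, d ≠ 0 ∧ act (x * g) (e n) = d • e n := by
  obtain ⟨x, hx, hG⟩ := reduce_all hF hg 27 le_rfl
  refine ⟨x, hx, fun n hn => hG n ?_⟩
  have h1 : ∀ n : Fin 27, n.val ∈ ord.take 27 := by decide +kernel
  exact h1 ⟨n, hn⟩

end Main

end Cfsg.Agent.Lib.CubicE6.Stage2
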